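/-
An automorphism of `PSp_{2m}(F)` maps transvection groups to transvection groups.
-/
import Mathlib
import Cfsg.Agent.Lib.Classical.PSpAut.Basic
import Cfsg.Agent.Lib.Classical.SymplecticInSL

set_option autoImplicit false

open scoped Classical

namespace Cfsg.Lib.Classical.PSpAut

open Matrix
open Cfsg.Lib.Classical (sympBilin sympBilin_isAlt sympBilin_nondegenerate mem_spGL_iff spToGL coe_spToGL
  spToGL_range gl_ext glEquiv glEquiv_symm_mulVec mem_symplecticGroup_iff_spGL)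
open scoped MatrixGroups

variable {F : Type*} [Field F] {m : ℕ}

set_option quotPrecheck false in
local notation "V" => (Fin m ⊕ Fin m → F)
set_option quotPrecheck false in
local notation "Sp" => (↥(Matrix.symplecticGroup (Fin m) F))
set_option quotPrecheck false in
local notation "PS" => (Cfsg.PSp m F)
set_option quotPrecheck false in
local notation "ω" => sympBilin F m

theorem exists_of_iso (h : (V) ≃ₗ[F] V) (hh : ∀ x y, ω (h x) (h y) = ω x y) :
    ∃ g : Sp, ∀ x, g.1 *ᵥ x = h x := by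
  have hm : (glEquiv (Fin m ⊕ Fin m) F).symm h ∈ Cfsg.spGL m F :=
    mem_spGL_iff.2 fun x y => by rw [glEquiv_symm_mulVec, glEquiv_symm_mulVec, hh]
  exact ⟨⟨_, (mem_symplecticGroup_iff_spGL _).2 hm⟩, fun x => glEquiv_symm_mulVec h x⟩

theorem exists_move {u v : V} (hu : u ≠ 0) (hv : v ≠ 0) : ∃ g : Sp, g.1 *ᵥ u = v := by
  obtain ⟨g, hg⟩ := SpSimple.exists_map hu hv
  exact ⟨⟨_, (mem_symplecticGroup_iff_spGL _).2 g.2⟩, hg⟩

theorem exists_move_pair {a b a' b' : V} (ha : a ≠ 0) (hb : b ∉ Submodule.span F {a}) (hab : ω a b = 0)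
    (ha' : a' ≠ 0) (hb' : b' ∉ Submodule.span F {a'}) (hab' : ω a' b' = 0) :
    ∃ g : Sp, g.1 *ᵥ a = a' ∧ g.1 *ᵥ b = b' := by
  obtain ⟨h, hh, h1, h2⟩ := Cfsg.Lib.Classical.exists_move_orth_pair ω (sympBilin_isAlt F m)
    (sympBilin_nondegenerate F m) ha hb hab ha' hb' hab'
  obtain ⟨g, hg⟩ := exists_of_iso h hh
  exact ⟨g, by rw [hg, h1], by rw [hg, h2]⟩

/-- The stabiliser of a vector. -/
def Stab (e : V) : Subgroup Sp where
  carrier := {A | A.1 *ᵥ e = e}
  mul_mem' {a b} ha hb := by show (a * b : Sp).1 *ᵥ e = e; rw [mul_mulVec, hb, ha]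
  one_mem' := one_mulVec e
  inv_mem' {a} ha := by
    show (a⁻¹ : Sp).1 *ᵥ e = e
    conv_lhs => rw [← ha]
    exact inv_mulVec a e

theorem mem_Stab {e : V} {A : Sp} : A ∈ Stab e ↔ A.1 *ᵥ e = e := Iff.rfl

/-- The radical of the stabiliser. -/
def Qr (e : V) : Subgroup Sp where
  carrier := {A | A.1 *ᵥ e = e ∧ ∀ x, ω x e = 0 → ∃ c : F, A.1 *ᵥ x = x + c • e}
  one_mem' := ⟨one_mulVec e, fun x _ => ⟨0, by rw [zero_smul, add_zero]; exact one_mulVec x⟩⟩
  mul_mem' {a b} ha hb := by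
    refine ⟨by rw [mul_mulVec, hb.1, ha.1], fun x hx => ?_⟩
    obtain ⟨c, hc⟩ := hb.2 x hx
    obtain ⟨d, hd⟩ := ha.2 x hx
    exact ⟨d + c, by rw [mul_mulVec, hc, mulVec_add, mulVec_smul, ha.1, hd, add_assoc, add_smul]⟩
  inv_mem' {a} ha := by
    have he : (a⁻¹ : Sp).1 *ᵥ e = e := by conv_lhs => rw [← ha.1, inv_mulVec]
    refine ⟨he, fun x hx => ?_⟩
    obtain ⟨c, hc⟩ := ha.2 x hx
    refine ⟨-c, ?_⟩
    have := inv_mulVec a x
    rw [hc, mulVec_add, mulVec_smul, he] at this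
    rw [neg_smul, ← sub_eq_add_neg, eq_sub_iff_add_eq, this]

theorem Qr_le (e : V) : Qr e ≤ Stab e := fun _ h => h.1

instance Qr_normal (e : V) : ((Qr e).subgroupOf (Stab e)).Normal := by
  refine ⟨fun u hu g => ?_⟩
  rw [Subgroup.mem_subgroupOf] at hu ⊢
  have hge : (g.1).1 *ᵥ e = e := g.2
  have hge' : ((g.1)⁻¹ : Sp).1 *ᵥ e = e := by
    have := inv_mulVec g.1 e
    rwa [hge] at this
  refine ⟨by rw [Subgroup.coe_mul, Subgroup.coe_mul, Subgroup.coe_inv, mul_mulVec, mul_mulVec, hge', hu.1, hge],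
    fun x hx => ?_⟩
  obtain ⟨c, hc⟩ := hu.2 (((g.1)⁻¹ : Sp).1 *ᵥ x) (by
    have := iso (g.1⁻¹) x e
    rw [hge', hx] at this
    exact this)
  refine ⟨c, ?_⟩
  rw [Subgroup.coe_mul, Subgroup.coe_mul, Subgroup.coe_inv, mul_mulVec, mul_mulVec, hc, mulVec_add, mulVec_smul,
    hge, mulVec_inv]

theorem Qr_nilpotent {e : V} {u : Sp} (hu : u ∈ Qr e) :
    (u.1 - 1) ^ 3 = (0 : Matrix (Fin m ⊕ Fin m) (Fin m ⊕ Fin m) F) := by
  refine ext_mulVec fun x => ?_
  rw [zero_mulVec, pow_succ, pow_two, ← mulVec_mulVec, ← mulVec_mulVec]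
  have h1 : ω ((u.1 - 1) *ᵥ x) e = 0 := by
    rw [sub_mulVec, one_mulVec, map_sub, LinearMap.sub_apply]
    conv_lhs => enter [1, 2]; rw [← hu.1]
    rw [iso, sub_self]
  obtain ⟨c, hc⟩ := hu.2 _ h1
  have h2 : (u.1 - 1) *ᵥ ((u.1 - 1) *ᵥ x) = c • e := by
    rw [sub_mulVec, one_mulVec, hc, add_sub_cancel_left]
  rw [h2, mulVec_smul, sub_mulVec, one_mulVec, hu.1, sub_self, smul_zero]

theorem Qr_pow {p : ℕ} [Fact p.Prime] [CharP F p] (hm : 1 ≤ m) {e : V} {u : Sp} (hu : u ∈ Qr e) :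
    u ^ (p ^ 2) = 1 := by
  haveI : Nonempty (Fin m ⊕ Fin m) := ⟨Sum.inl ⟨0, hm⟩⟩
  have h3 : 3 ≤ p ^ 2 := le_trans (by norm_num) (Nat.pow_le_pow_left (Fact.out : p.Prime).two_le 2)
  refine Subtype.ext ?_
  rw [SubmonoidClass.coe_pow, show u.1 = (u.1 - 1) + 1 by rw [sub_add_cancel],
    add_pow_expChar_pow_of_commute (p := p) _ (Commute.one_right _), one_pow,
    pow_eq_zero_of_le h3 (Qr_nilpotent hu), zero_add]
  rfl

theorem Qr_isPGroup {p : ℕ} [Fact p.Prime] [CharP F p] (hm : 1 ≤ m) (e : V) :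
    IsPGroup p ((Qr e).subgroupOf (Stab e)) := fun g => ⟨2, Subtype.ext (Subtype.ext (by
      rw [SubmonoidClass.coe_pow, SubmonoidClass.coe_pow]
      exact Qr_pow hm (Subgroup.mem_subgroupOf.1 g.2)))⟩

/-- The element `x ↦ x + ω(x,e) w + ω(x,w) e`. -/
noncomputable def uQ (e w : V) : Sp := tS (e + w) 1 * (tS e (-1) * tS w (-1))

theorem uQ_mulVec {e w : V} (h : ω w e = 0) (x : V) :
    (uQ e w).1 *ᵥ x = x + ω x e • w + ω x w • e := by
  have h' : ω e w = 0 := by rw [swap w e, h, neg_zero]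
  rw [uQ, mul_mulVec, mul_mulVec]
  simp only [tS_mulVec, map_add, map_smul, LinearMap.add_apply, LinearMap.smul_apply, self, smul_eq_mul, h, h']
  module

theorem uQ_mem {e w : V} (h : ω w e = 0) : uQ e w ∈ Qr e := by
  have h' : ω e w = 0 := by rw [swap w e, h, neg_zero]
  exact ⟨by simp [uQ_mulVec h, h'], fun x hx => ⟨ω x w, by simp [uQ_mulVec h, hx]⟩⟩

theorem tS_mem_Qr (e : V) (c : F) : tS e c ∈ Qr e :=
  ⟨by simp, fun x hx => ⟨0, by simp [hx]⟩⟩

theorem exists_of_comm {e : V} (he : e ≠ 0) {z : Sp} (hz : ∀ u ∈ Qr e, z * u = u * z) :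
    ∃ (r c : F) (k : V), r * r = 1 ∧ ω k e = 0 ∧ (∀ w, ω w e = 0 → 2 * ω k w = 0) ∧
      ∀ x, r • (z.1 *ᵥ x) = x + ω x e • k + ω k x • e + (c * ω x e) • e := by
  obtain ⟨f, hf⟩ := exists_eq_one he
  have hT : ∀ x, ω x e • (z.1 *ᵥ e) = ω (z.1 *ᵥ x) e • e := fun x => by
    have h := congrArg (fun A : Sp => A.1 *ᵥ x) (hz _ (tS_mem_Qr e 1))
    simp only [mul_mulVec, tS_mulVec, mulVec_add, mulVec_smul, one_mul, add_right_inj] at h
    exact h
  set r := ω (z.1 *ᵥ f) e
  have hze : z.1 *ᵥ e = r • e := by simpa [hf] using hT f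
  have hB : ∀ x, ω (z.1 *ᵥ x) e = ω x e * r := fun x => by
    have h := hT x
    rw [hze, smul_smul] at h
    exact (smul_left_injective F he h).symm
  have hr : r * r = 1 := by
    have h := iso z f e
    rw [hze, map_smul, hf, smul_eq_mul] at h
    exact h
  let η : V → V := fun x => r • (z.1 *ᵥ x)
  have hηiso : ∀ x y, ω (η x) (η y) = ω x y := fun x y => by
    simp only [η, map_smul, LinearMap.smul_apply, smul_eq_mul, iso, ← mul_assoc, hr, one_mul]
  have hηe : η e = e := by simp [η, hze, smul_smul, hr]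
  have hηB : ∀ x, ω (η x) e = ω x e := fun x => by
    simp only [η, map_smul, LinearMap.smul_apply, smul_eq_mul, hB]
    linear_combination ω x e * hr
  have hηadd : ∀ (x y : V) (a : F), η (x + a • y) = η x + a • η y := fun x y a => by
    simp only [η, mulVec_add, mulVec_smul, smul_add, smul_comm r a]
  have hcomm : ∀ w, ω w e = 0 → ∀ x, η x + ω x e • η w + ω x w • e = η x + ω (η x) e • w + ω (η x) w • e := by
    intro w hw x
    have h := congrArg (fun A : Sp => r • (A.1 *ᵥ x)) (hz _ (uQ_mem hw))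
    simp only [mul_mulVec, uQ_mulVec hw, mulVec_add, mulVec_smul, hze, smul_add] at h
    simp only [η, map_smul, LinearMap.smul_apply, smul_eq_mul]
    linear_combination (norm := skip) h
    simp only [smul_smul, ← mul_assoc]
    rw [show r * ω x w * r = ω x w by linear_combination ω x w * hr]
    module
  set k := η f - f
  have hk : ω k e = 0 := by simp [k, hηB, hf]
  have hw : ∀ w, ω w e = 0 → η w = w + ω k w • e := by
    intro w hw'
    have h := hcomm w hw' f
    rw [hηB, hf, one_smul, one_smul] at h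
    have e' : η w = w + (ω (η f) w - ω f w) • e := by
      rw [sub_smul]
      linear_combination (norm := module) h
    rw [e']; simp [k]
  have h2 : ∀ w, ω w e = 0 → 2 * ω k w = 0 := by
    intro w hw'
    have h := hηiso w f
    rw [show η f = f + k by simp [k], hw w hw'] at h
    have hef : ω e f = -1 := by rw [swap f e, hf]
    have hek : ω e k = 0 := by rw [swap k e, hk, neg_zero]
    simp only [map_add, LinearMap.add_apply, map_smul, LinearMap.smul_apply, smul_eq_mul, hef, hek, swap k w] at h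
    linear_combination -h
  refine ⟨r, -ω k f, k, hr, hk, h2, fun x => ?_⟩
  show η x = _
  have hx0 : ω (x + (-ω x e) • f) e = 0 := by simp [hf]
  have e1 : x = (x + (-ω x e) • f) + ω x e • f := by module
  conv_lhs => rw [e1, hηadd, hw _ hx0, show η f = f + k by simp [k]]
  simp only [map_add, map_smul, smul_eq_mul]
  module

variable [Fintype F]

theorem card_perp {e : V} (he : e ≠ 0) :
    Nat.card {x : V // ω x e = 0} * Fintype.card F = Nat.card (V) := by
  obtain ⟨f, hf⟩ := exists_eq_one he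
  rw [← Nat.card_eq_fintype_card (α := F), ← Nat.card_prod]
  exact Nat.card_congr
    { toFun := fun p => p.1.1 + p.2 • f
      invFun := fun x => (⟨x + (-ω x e) • f, by simp [hf]⟩, ω x e)
      left_inv := fun p => Prod.ext (Subtype.ext (by simp [p.1.2, hf])) (by simp [p.1.2, hf])
      right_inv := fun x => by simp only; module }

theorem card_V : Nat.card (V) = Fintype.card F ^ (2 * m) := by
  rw [Nat.card_fun, Nat.card_eq_fintype_card, Nat.card_eq_fintype_card, Fintype.card_sum, Fintype.card_fin, two_mul]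

theorem index_Stab {e : V} (he : e ≠ 0) : (Stab e).index = Fintype.card F ^ (2 * m) - 1 := by
  rw [Subgroup.index, ← card_V (F := F) (m := m)]
  have hc : Nat.card {v : V // v ≠ 0} = Nat.card (V) - 1 := by
    rw [Nat.card_eq_fintype_card, Nat.card_eq_fintype_card, Fintype.card_subtype_compl, Fintype.card_subtype_eq]
  rw [← hc]
  refine Nat.card_eq_of_bijective (Quotient.lift (fun A : Sp => (⟨A.1 *ᵥ e, mulVec_ne_zero A he⟩ : {v : V // v ≠ 0}))
    fun A B h => ?_) ⟨?_, ?_⟩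
  · have h' := QuotientGroup.leftRel_apply.1 h
    refine Subtype.ext ?_
    show A.1 *ᵥ e = B.1 *ᵥ e
    conv_lhs => rw [← mem_Stab.1 h', ← mul_mulVec, mul_inv_cancel_left]
  · intro x y h
    induction x using Quotient.ind with
    | _ A =>
    induction y using Quotient.ind with
    | _ B =>
    refine Quotient.sound (QuotientGroup.leftRel_apply.2 ?_)
    have h' : A.1 *ᵥ e = B.1 *ᵥ e := congrArg Subtype.val h
    rw [mem_Stab, mul_mulVec, ← h', inv_mulVec]
  · rintro ⟨v, hv⟩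
    obtain ⟨g, hg⟩ := exists_move he hv
    exact ⟨Quotient.mk'' g, Subtype.ext hg⟩

variable (p : ℕ) [Fact p.Prime] [CharP F p]

theorem p_dvd_card : p ∣ Fintype.card F := by
  obtain ⟨f, -, hq⟩ := FiniteField.card F p
  exact hq ▸ dvd_pow_self p f.ne_zero

/-- A Sylow subgroup of `PSp` below the stabiliser of a vector. -/
theorem exists_sylow (hm : 1 ≤ m) {e : V} (he : e ≠ 0) :
    ∃ S : Sylow p PS, ∀ y : PS, y ∈ (S : Subgroup PS) →
      (∀ c, Commute y (P e c)) ∧ (∀ c, P e c ∈ (S : Subgroup PS)) ∧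
      ((∀ y' ∈ (S : Subgroup PS), y * y' = y' * y) →
        ∃ z : Sp, y = QuotientGroup.mk z ∧ ∀ u ∈ Qr e, z * u = u * z) := by
  obtain ⟨S0⟩ := (inferInstance : Nonempty (Sylow p (Stab e)))
  have hQS : (Qr e).subgroupOf (Stab e) ≤ S0 := by
    have h := IsPGroup.to_sup_of_normal_left (Qr_isPGroup (p := p) hm e) S0.isPGroup'
    exact le_sup_left.trans (S0.is_maximal' h le_sup_right).le
  let S1 : Subgroup Sp := (S0 : Subgroup (Stab e)).map (Stab e).subtype
  have hS1 : S1 ≤ Stab e := Subgroup.map_subtype_le _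
  have hi1 : ¬ p ∣ S1.index := by
    rw [← Subgroup.relIndex_mul_index hS1, Subgroup.relIndex, Subgroup.subgroupOf,
      Subgroup.comap_map_eq_self_of_injective (Subgroup.subtype_injective _)]
    refine (Nat.Prime.not_dvd_mul (Fact.out : p.Prime) (Sylow.not_dvd_index S0) fun h => ?_)
    rw [index_Stab he] at h
    have h2 : p ∣ Fintype.card F ^ (2 * m) := dvd_pow (p_dvd_card p) (by omega)
    have h1 : 1 ≤ Fintype.card F ^ (2 * m) := Nat.one_le_pow _ _ Fintype.card_pos
    have := Nat.dvd_sub h2 h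
    rw [show Fintype.card F ^ (2 * m) - (Fintype.card F ^ (2 * m) - 1) = 1 by omega] at this
    exact (Fact.out : p.Prime).not_dvd_one this
  have hQ1 : ∀ u ∈ Qr e, u ∈ S1 := fun u hu => ⟨⟨u, hu.1⟩, hQS (Subgroup.mem_subgroupOf.2 hu), rfl⟩
  have hP : IsPGroup p (S1.map (QuotientGroup.mk' (Subgroup.center Sp))) := (S0.isPGroup'.map _).map _
  have hi : ¬ p ∣ (S1.map (QuotientGroup.mk' (Subgroup.center Sp))).index := fun h =>
    hi1 (h.trans (Subgroup.index_map_dvd S1 (QuotientGroup.mk'_surjective _)))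
  refine ⟨hP.toSylow hi, fun y hy => ?_⟩
  obtain ⟨z, hz, rfl⟩ := (hy : y ∈ S1.map (QuotientGroup.mk' _))
  refine ⟨fun c => ?_, fun c => ⟨_, hQ1 _ (tS_mem_Qr e c), rfl⟩, fun hc => ⟨z, rfl, fun u hu => ?_⟩⟩
  · show _ = _
    refine congrArg QuotientGroup.mk ?_
    rw [← mul_inv_eq_iff_eq_mul, conj_tS, hS1 hz]
  · have h := hc _ ⟨u, hQ1 u hu, rfl⟩
    have h' : (QuotientGroup.mk u : PS) = QuotientGroup.mk (z * u * z⁻¹) := by
      rw [QuotientGroup.mk_mul, QuotientGroup.mk_mul, QuotientGroup.mk_inv]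
      exact (eq_mul_inv_iff_mul_eq.2 h.symm)
    obtain ⟨r, hr, hru⟩ := (mk_eq_iff hm).1 h'
    have hpow := congrArg (fun M => M ^ (p ^ 2)) hru
    simp only [smul_pow, ← SubmonoidClass.coe_pow, conj_pow, Qr_pow hm hu, mul_one, mul_inv_cancel] at hpow
    have h1 : r ^ (p ^ 2) = 1 := by
      have e' := congrFun (congrFun hpow (Sum.inl ⟨0, hm⟩)) (Sum.inl ⟨0, hm⟩)
      simpa using e'.symm
    have hr1 : r = 1 := by
      have h4 : (r - 1) ^ (p ^ 2) = 0 := by rw [sub_pow_char_pow, h1, one_pow, sub_self]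
      exact sub_eq_zero.1 (pow_eq_zero_iff (pow_ne_zero 2 (Fact.out : p.Prime).ne_zero) |>.1 h4)
    rw [hr1, one_smul] at hru
    exact mul_inv_eq_iff_eq_mul.1 (Subtype.ext hru)

/-- Central elements of the Sylow subgroup: transvections, or exotic in characteristic two. -/
theorem central_cases (hm : 1 ≤ m) {e : V} (he : e ≠ 0) {z : Sp} (hz : ∀ u ∈ Qr e, z * u = u * z) :
    (∃ c, (QuotientGroup.mk z : PS) = P e c) ∨
      (p = 2 ∧ ∃ (k : V) (c : F), ω k e = 0 ∧ k ∉ Submodule.span F {e} ∧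
        (QuotientGroup.mk z : PS) = QuotientGroup.mk (uQ e k * tS e c)) := by
  obtain ⟨r, c, k, hr, hk, h2, hx⟩ := exists_of_comm he hz
  by_cases hke : k ∈ Submodule.span F {e}
  · obtain ⟨s, rfl⟩ := Submodule.mem_span_singleton.1 hke
    refine Or.inl ⟨c, (mk_eq_iff hm).2 ⟨r, hr, ext_mulVec fun x => ?_⟩⟩
    rw [smul_mulVec, hx, tS_mulVec, map_smul, LinearMap.smul_apply, smul_eq_mul, swap x e]
    module
  · have hp2 : p = 2 := by
      by_contra hp
      have h20 : (2 : F) ≠ 0 := Ring.two_ne_zero (by rw [ringChar.eq F p]; exact hp)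
      obtain ⟨f, hf⟩ := exists_eq_one he
      apply hke
      refine Submodule.mem_span_singleton.2 ⟨-ω k f, (sub_eq_zero.1 (eq_zero_of_forall fun y => ?_)).symm⟩
      have hy : ω k (y + (-ω y e) • f) = 0 := by
        have := h2 (y + (-ω y e) • f) (by simp [hf])
        exact (mul_eq_zero.1 this).resolve_left h20
      simp only [map_add, map_smul, map_sub, smul_eq_mul] at hy ⊢
      rw [swap k y]
      linear_combination -hy
    subst hp2
    haveI : CharP F 2 := inferInstance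
    refine Or.inr ⟨rfl, k, c, hk, hke, (mk_eq_iff hm).2 ⟨r, hr, ext_mulVec fun x => ?_⟩⟩
    rw [smul_mulVec, hx, mul_mulVec, uQ_mulVec hk]
    have hek : ω e k = 0 := by rw [swap k e, hk, neg_zero]
    simp only [tS_mulVec, map_add, map_smul, LinearMap.add_apply, LinearMap.smul_apply, smul_eq_mul, self, hek,
      swap x k, CharTwo.neg_eq]
    module

/-- The conjugacy class as a set. -/
def cls (y : PS) : Set PS := Set.range fun g : PS => g * y * g⁻¹

omit [Fintype F] in
theorem cls_conj (h y : PS) : cls (h * y * h⁻¹) = cls y := by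
  ext z
  constructor
  · rintro ⟨g, rfl⟩; exact ⟨g * h, by group⟩
  · rintro ⟨g, rfl⟩; exact ⟨g * h⁻¹, by group⟩

omit [Fintype F] in
theorem card_cls_map (β : MulAut PS) (y : PS) : Nat.card (cls (β y)) = Nat.card (cls y) := by
  refine (Nat.card_congr ((Equiv.subtypeEquiv β.toEquiv fun z => ?_))).symm
  constructor
  · rintro ⟨g, rfl⟩; exact ⟨β g, by simp⟩
  · rintro ⟨g, hg⟩
    exact ⟨β.symm g, β.injective (by simpa using hg)⟩

theorem card_cls_P {e : V} (he : e ≠ 0) (c : F) :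
    Nat.card (cls (P e c)) ≤ Fintype.card F ^ (2 * m) - 1 := by
  have hc : Nat.card {v : V // v ≠ 0} = Nat.card (V) - 1 := by
    rw [Nat.card_eq_fintype_card, Nat.card_eq_fintype_card, Fintype.card_subtype_compl, Fintype.card_subtype_eq]
  rw [← card_V (F := F) (m := m), ← hc]
  refine (Nat.card_mono (Set.finite_range _) ?_).trans (Finite.card_range_le fun v : {v : V // v ≠ 0} => P v.1 c)
  rintro _ ⟨g, rfl⟩
  obtain ⟨g, rfl⟩ := QuotientGroup.mk_surjective g
  refine ⟨⟨g.1 *ᵥ e, mulVec_ne_zero g he⟩, ?_⟩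
  show P (g.1 *ᵥ e) c = _
  rw [P, ← conj_tS]
  rfl

omit [Fintype F] in
theorem conj_uQ (g : Sp) (e k : V) : g * uQ e k * g⁻¹ = uQ (g.1 *ᵥ e) (g.1 *ᵥ k) := by
  rw [uQ, uQ, ← mulVec_add, ← conj_tS, ← conj_tS, ← conj_tS]
  group

omit [Fintype F] in
theorem exotic_mulVec {a b : V} (h : ω b a = 0) (c : F) (x : V) :
    (uQ a b * tS a c).1 *ᵥ x = x + (c * ω x a + ω x b) • a + ω x a • b := by
  have h' : ω a b = 0 := by rw [swap b a, h, neg_zero]
  rw [mul_mulVec, uQ_mulVec h]
  simp only [tS_mulVec, map_add, map_smul, LinearMap.add_apply, LinearMap.smul_apply, self, h', smul_zero, add_zero]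
  module

theorem card_cls_exotic [CharP F 2] (hm : 3 ≤ m) {e k : V} (he : e ≠ 0) (hk : ω k e = 0)
    (hke : k ∉ Submodule.span F {e}) (c : F) :
    Fintype.card F ^ (2 * m) - 1 < Nat.card (cls (QuotientGroup.mk (uQ e k * tS e c) : PS)) := by
  let Y := Σ a : {a : V // a ≠ 0}, {b : V // ω b a.1 = 0 ∧ b ∉ Submodule.span F {a.1}}
  let img : Y → cls (QuotientGroup.mk (uQ e k * tS e c) : PS) := fun y =>
    ⟨QuotientGroup.mk (uQ y.1.1 y.2.1 * tS y.1.1 c), by
      obtain ⟨g, hga, hgb⟩ := exists_move_pair he hke (by rw [swap k e, hk, neg_zero]) y.1.2 y.2.2.2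
        (by rw [swap y.2.1 y.1.1, y.2.2.1, neg_zero])
      refine ⟨QuotientGroup.mk g, ?_⟩
      show QuotientGroup.mk g * QuotientGroup.mk _ * (QuotientGroup.mk g)⁻¹ = QuotientGroup.mk _
      rw [show uQ y.1.1 y.2.1 * tS y.1.1 c = uQ (g.1 *ᵥ e) (g.1 *ᵥ k) * tS (g.1 *ᵥ e) c by rw [hga, hgb],
        ← conj_uQ, ← conj_tS, ← QuotientGroup.mk_inv, ← QuotientGroup.mk_mul, ← QuotientGroup.mk_mul]
      congr 1
      group⟩
  have hinj : ∀ y y' : Y, img y = img y' → ∃ c1 c2 c3 c4 : F,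
      y.1.1 = c1 • y'.1.1 + c2 • y'.2.1 ∧ y.2.1 = c3 • y'.1.1 + c4 • y'.2.1 := by
    intro y y' h
    obtain ⟨r, hr, hM⟩ := (mk_eq_iff (by omega)).1 (congrArg Subtype.val h)
    have hr1 : r = 1 := by
      have h4 : (r - 1) * (r - 1) = 0 := by linear_combination hr + (1 - r) * (CharTwo.two_eq_zero (R := F))
      exact sub_eq_zero.1 (mul_self_eq_zero.1 h4)
    rw [hr1, one_smul] at hM
    have hx : ∀ x, (c * ω x y.1.1 + ω x y.2.1) • y.1.1 + ω x y.1.1 • y.2.1 =
        (c * ω x y'.1.1 + ω x y'.2.1) • y'.1.1 + ω x y'.1.1 • y'.2.1 := fun x => by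
      have h2 := congrArg (fun M => M *ᵥ x) hM
      simp only [exotic_mulVec y.2.2.1, exotic_mulVec y'.2.2.1, add_assoc, add_right_inj] at h2
      exact h2.symm
    obtain ⟨z, hz1, hz2⟩ := Cfsg.Lib.Classical.exists_sep ω (sympBilin_isAlt F m) (sympBilin_nondegenerate F m)
      y.2.2.2
    have hza : ω z y.1.1 = 0 := by rw [swap y.1.1 z, hz1, neg_zero]
    have hzb : ω z y.2.1 = -1 := by rw [swap y.2.1 z, hz2]
    obtain ⟨x, hxa⟩ := exists_eq_one y.1.2
    have e1 := hx z
    have e2 := hx x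
    rw [hza, hzb, zero_smul, mul_zero, zero_add, add_zero, neg_smul, one_smul] at e1
    rw [hxa, one_smul, mul_one] at e2
    refine ⟨-(c * ω z y'.1.1 + ω z y'.2.1), -ω z y'.1.1,
      c * ω x y'.1.1 + ω x y'.2.1 + (c + ω x y.2.1) * (c * ω z y'.1.1 + ω z y'.2.1),
      ω x y'.1.1 + (c + ω x y.2.1) * ω z y'.1.1, ?_, ?_⟩
    · linear_combination (norm := module) -e1
    · linear_combination (norm := module) e2 + (c + ω x y.2.1) • e1
  by_contra hle
  rw [not_lt] at hle
  have hcard : Nat.card Y ≤ Nat.card (cls (QuotientGroup.mk (uQ e k * tS e c) : PS)) * Fintype.card F ^ 4 := by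
    let rep : cls (QuotientGroup.mk (uQ e k * tS e c) : PS) → Option Y := fun z =>
      if h : ∃ y, img y = z then some h.choose else none
    have hrep : ∀ y : Y, ∃ y', rep (img y) = some y' ∧ img y = img y' := fun y => by
      have h : ∃ y', img y' = img y := ⟨y, rfl⟩
      exact ⟨h.choose, dif_pos h, h.choose_spec.symm⟩
    choose y' hy' himg using hrep
    choose c1 c2 c3 c4 h1 h2 using fun y => hinj y (y' y) (himg y)
    have key := Nat.card_le_card_of_injective (fun y => (img y, ![c1 y, c2 y, c3 y, c4 y])) (fun u v huv => by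
      simp only [Prod.mk.injEq] at huv
      have e0 : y' u = y' v := Option.some_injective _ (by rw [← hy', ← hy', huv.1])
      have g1 := congrFun huv.2 0; have g2 := congrFun huv.2 1
      have g3 := congrFun huv.2 2; have g4 := congrFun huv.2 3
      simp at g1 g2 g3 g4
      have ha : u.1.1 = v.1.1 := by rw [h1 u, h1 v, e0, g1, g2]
      have hb : u.2.1 = v.2.1 := by rw [h2 u, h2 v, e0, g3, g4]
      obtain ⟨⟨a, _⟩, b, _⟩ := u
      obtain ⟨⟨a', _⟩, b', _⟩ := v
      simp only at ha hb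
      subst ha hb
      rfl)
    rw [Nat.card_prod, Nat.card_fun, Nat.card_eq_fintype_card (α := Fin 4), Fintype.card_fin,
      Nat.card_eq_fintype_card (α := F)] at key
    exact key
  have hq : 2 ≤ Fintype.card F := Fintype.one_lt_card
  have hfib : ∀ a : {a : V // a ≠ 0},
      Fintype.card F ^ 4 < Nat.card {b : V // ω b a.1 = 0 ∧ b ∉ Submodule.span F {a.1}} := by
    intro a
    have h1 := card_perp a.2
    rw [card_V] at h1
    have h2 : Nat.card {b : V // ω b a.1 = 0} ≤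
        Nat.card {b : V // ω b a.1 = 0 ∧ b ∉ Submodule.span F {a.1}} + Nat.card F := by
      rw [← Nat.card_sum]
      refine Nat.card_le_card_of_surjective (Sum.elim (fun b => ⟨b.1, b.2.1⟩) fun r => ⟨r • a.1, by simp⟩) fun b => ?_
      by_cases hb : b.1 ∈ Submodule.span F {a.1}
      · obtain ⟨r, hr⟩ := Submodule.mem_span_singleton.1 hb
        exact ⟨Sum.inr r, Subtype.ext hr⟩
      · exact ⟨Sum.inl ⟨b.1, b.2, hb⟩, rfl⟩
    have h3 : Fintype.card F ^ 6 ≤ Fintype.card F ^ (2 * m) := Nat.pow_le_pow_right (by omega) (by omega)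
    rw [Nat.card_eq_fintype_card (α := F)] at h2
    set q := Fintype.card F
    set A := Nat.card {b : V // ω b a.1 = 0 ∧ b ∉ Submodule.span F {a.1}}
    set B := Nat.card {b : V // ω b a.1 = 0}
    by_contra hA
    have h4 : B * q ≤ (q ^ 4 + q) * q := Nat.mul_le_mul_right q (h2.trans (by omega))
    rw [h1] at h4
    have e5 : (q ^ 4 + q) * q = q ^ 5 + q ^ 2 := by ring
    have h6 : 2 * q ^ 5 ≤ q ^ 6 := by rw [show q ^ 6 = q * q ^ 5 by ring]; exact Nat.mul_le_mul_right _ hq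
    have h7 : q ^ 2 < q ^ 5 := Nat.pow_lt_pow_right (by omega) (by omega)
    omega
  have hY : Nat.card {a : V // a ≠ 0} * (Fintype.card F ^ 4 + 1) ≤ Nat.card Y := by
    rw [Nat.card_sigma, Nat.card_eq_fintype_card, Fintype.card, mul_comm]
    calc (Fintype.card F ^ 4 + 1) * (Finset.univ : Finset {a : V // a ≠ 0}).card
        = ∑ _a : {a : V // a ≠ 0}, (Fintype.card F ^ 4 + 1) := by simp [mul_comm]
      _ ≤ _ := Finset.sum_le_sum fun a _ => hfib a
  have hc : Nat.card {v : V // v ≠ 0} = Nat.card (V) - 1 := by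
    rw [Nat.card_eq_fintype_card, Nat.card_eq_fintype_card, Fintype.card_subtype_compl, Fintype.card_subtype_eq]
  rw [hc, card_V] at hY
  have hN : 1 < Fintype.card F ^ (2 * m) := Nat.one_lt_pow (by omega) (by omega)
  have := hY.trans (hcard.trans (Nat.mul_le_mul_right _ hle))
  rw [Nat.mul_add, mul_one] at this
  omega

/-- **An automorphism maps a transvection group to a transvection group.** -/
theorem exists_image (hm : 2 ≤ m) (hp : p = 2 → 3 ≤ m) (β : MulAut PS) {v : V} (hv : v ≠ 0) :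
    ∃ (w : V) (ψ : F → F), w ≠ 0 ∧ ∀ c, β (P v c) = P w (ψ c) := by
  obtain ⟨S, hS⟩ := exists_sylow p (by omega : 1 ≤ m) hv
  let T : Sylow p PS := (S.isPGroup'.map β.toMonoidHom).toSylow (by
    rw [show β.toMonoidHom = (β : PS →* PS) from rfl, Subgroup.index_map_equiv]
    exact Sylow.not_dvd_index S)
  obtain ⟨h, hh⟩ := MulAction.exists_smul_eq PS S T
  have hmem : ∀ y, y ∈ (T : Subgroup PS) → h⁻¹ * y * h ∈ (S : Subgroup PS) := by
    intro y hy
    rw [← hh, Sylow.coe_subgroup_smul, Subgroup.mem_pointwise_smul_iff_inv_smul_mem] at hy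
    simpa [MulAut.conj_symm_apply, MulDistribMulAction.toMulAut] using hy
  have key : ∀ c : F, ∃ d, h⁻¹ * β (P v c) * h = P v d := by
    intro c
    have hPS : P v c ∈ (S : Subgroup PS) := (hS 1 (one_mem _)).2.1 c
    have hy0 := hmem _ (show β (P v c) ∈ (T : Subgroup PS) from ⟨_, hPS, rfl⟩)
    have hc : ∀ y' ∈ (S : Subgroup PS), h⁻¹ * β (P v c) * h * y' = y' * (h⁻¹ * β (P v c) * h) := by
      intro y' hy'
      have : h * y' * h⁻¹ ∈ (T : Subgroup PS) := by
        rw [← hh, Sylow.coe_subgroup_smul, Subgroup.mem_pointwise_smul_iff_inv_smul_mem]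
        simpa [MulAut.conj_symm_apply, MulDistribMulAction.toMulAut, mul_assoc] using hy'
      obtain ⟨x, hx, hxe⟩ := this
      have hxe' : β x = h * y' * h⁻¹ := hxe
      have hcm : Commute (β x) (β (P v c)) := ((hS x hx).1 c).map β.toMonoidHom
      rw [hxe'] at hcm
      calc h⁻¹ * β (P v c) * h * y' = h⁻¹ * (β (P v c) * (h * y' * h⁻¹)) * h := by group
        _ = h⁻¹ * ((h * y' * h⁻¹) * β (P v c)) * h := by rw [hcm.eq]
        _ = _ := by group
    obtain ⟨z, hz, hzQ⟩ := (hS _ hy0).2.2 hc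
    rw [hz]
    rcases central_cases p (by omega : 1 ≤ m) hv hzQ with hd | ⟨hp2, k, d, hk, hke, he⟩
    · exact hd
    · exfalso
      subst hp2
      have h1 := card_cls_exotic (hp rfl) hv hk hke d
      rw [← he, ← hz] at h1
      have h2 : cls (h⁻¹ * β (P v c) * h) = cls (β (P v c)) := by
        have := cls_conj h⁻¹ (β (P v c))
        rwa [inv_inv] at this
      rw [h2, card_cls_map] at h1
      exact absurd (card_cls_P hv c) (not_le.2 h1)
  choose d hd using key
  obtain ⟨g, rfl⟩ := QuotientGroup.mk_surjective h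
  refine ⟨g.1 *ᵥ v, d, mulVec_ne_zero g hv, fun c => ?_⟩
  have e : β (P v c) = QuotientGroup.mk g * P v (d c) * (QuotientGroup.mk g)⁻¹ := by rw [← hd c]; group
  rw [e, P, P, ← conj_tS]
  rfl

end Cfsg.Lib.Classical.PSpAut
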