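/-
Automorphisms of `PSp_{2m}(F)`: every automorphism is inner-diagonal times a field automorphism.
-/
import Mathlib
import Cfsg.Agent.Lib.Classical.PSpAut.Image
import Cfsg.Agent.Lib.Classical.Witt

set_option autoImplicit false

open scoped Classical

namespace Cfsg.Lib.Classical.PSpAut

open Matrix
open Cfsg.Lib.Classical (sympBilin sympBilin_isAlt sympBilin_nondegenerate sympBilin_apply spGL_le_of_sTGL_mem
  spToGL coe_spToGL spToGL_injective)
open scoped MatrixGroups

variable {F : Type*} [Field F] {m : ℕ}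

set_option quotPrecheck false in
local notation "V" => (Fin m ⊕ Fin m → F)
set_option quotPrecheck false in
local notation "Sp" => (↥(Matrix.symplecticGroup (Fin m) F))
set_option quotPrecheck false in
local notation "PS" => (Cfsg.PSp m F)
set_option quotPrecheck false in
local notation "ω" => sympBilin F m

/-- The first half of the standard basis. -/
noncomputable abbrev eB (i : Fin m) : V := Pi.single (Sum.inl i) 1

/-- The second half of the standard basis. -/
noncomputable abbrev fB (i : Fin m) : V := Pi.single (Sum.inr i) 1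

theorem omega_e (x : V) (i : Fin m) : ω x (eB i) = x (Sum.inr i) := by
  rw [sympBilin_apply, Cfsg.Lib.Classical.sympForm_eq_sum, Finset.sum_eq_single i] <;>
    simp +contextual [eB, Pi.single_apply]

theorem omega_f (x : V) (i : Fin m) : ω x (fB i) = -x (Sum.inl i) := by
  rw [sympBilin_apply, Cfsg.Lib.Classical.sympForm_eq_sum, Finset.sum_eq_single i] <;>
    simp +contextual [fB, Pi.single_apply]

theorem eq_top_of_tS_mem (H : Subgroup Sp) (h : ∀ v c, tS v c ∈ H) : H = ⊤ := by
  refine eq_top_iff.2 fun A _ => ?_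
  have h1 : spToGL A ∈ Cfsg.spGL m F := Cfsg.Lib.Classical.spToGL_range (F := F) (m := m) ▸ ⟨A, rfl⟩
  obtain ⟨B, hB, e⟩ := spGL_le_of_sTGL_mem (H := H.map (spToGL (F := F) (m := m)))
    (fun v c => ⟨tS v c, h v c, Units.ext (coe_spToGL _)⟩) h1
  rwa [← spToGL_injective e]

/-- A vector with prescribed entries in one plane. -/
noncomputable def upd (v : V) (i : Fin m) (a b : F) : V :=
  Function.update (Function.update v (Sum.inl i) a) (Sum.inr i) b

theorem upd_inl (v : V) (i : Fin m) (a b : F) (k : Fin m) :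
    upd v i a b (Sum.inl k) = if k = i then a else v (Sum.inl k) := by
  simp [upd, Function.update_apply]

theorem upd_inr (v : V) (i : Fin m) (a b : F) (k : Fin m) :
    upd v i a b (Sum.inr k) = if k = i then b else v (Sum.inr k) := by
  simp [upd, Function.update_apply]

theorem gen_top (h0 : 0 < m) (H : Subgroup Sp) (he : ∀ i c, tS (eB i) c ∈ H) (hf : ∀ i c, tS (fB i) c ∈ H)
    (hs : ∀ j, j ≠ ⟨0, h0⟩ → ∀ c, tS (eB ⟨0, h0⟩ + eB j) c ∈ H) : H = ⊤ := by
  let o : Fin m := ⟨0, h0⟩
  let S : Set (V) := {v | ∀ c, tS v c ∈ H}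
  have hmove : ∀ v ∈ S, ∀ w ∈ S, ∀ c, v + (c * ω v w) • w ∈ S := fun v hv w hw c d => by
    rw [← tS_mulVec, ← conj_tS]
    exact mul_mem (mul_mem (hw c) (hv d)) (inv_mem (hw c))
  have setA : ∀ v ∈ S, ∀ i, v (Sum.inr i) ≠ 0 → ∀ a, upd v i a (v (Sum.inr i)) ∈ S := by
    intro v hv i hne a
    have h := hmove v hv (eB i) (he i) ((a - v (Sum.inl i)) / v (Sum.inr i))
    rw [omega_e, div_mul_cancel₀ _ hne] at h
    convert h using 1
    funext k
    rcases k with k | k
    · rw [upd_inl]; split_ifs with hk <;> simp [eB, hk]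
    · rw [upd_inr]; split_ifs with hk <;> simp [eB, hk]
  have setB : ∀ v ∈ S, ∀ i, v (Sum.inl i) ≠ 0 → ∀ b, upd v i (v (Sum.inl i)) b ∈ S := by
    intro v hv i hne b
    have h := hmove v hv (fB i) (hf i) ((v (Sum.inr i) - b) / v (Sum.inl i))
    rw [omega_f, mul_neg, div_mul_cancel₀ _ hne] at h
    convert h using 1
    funext k
    rcases k with k | k
    · rw [upd_inl]; split_ifs with hk <;> simp [fB, hk]
    · rw [upd_inr]; split_ifs with hk <;> simp [fB, hk]
  have setP : ∀ v ∈ S, ∀ i, (v (Sum.inl i) ≠ 0 ∨ v (Sum.inr i) ≠ 0) → ∀ a b, (a ≠ 0 ∨ b ≠ 0) →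
      upd v i a b ∈ S := by
    intro v hv i hne a b hab
    have hupd : ∀ (u : V) (a b c d : F), upd (upd u i a b) i c d = upd u i c d := fun u a b c d => by
      funext k
      rcases k with k | k
      · simp only [upd_inl]; split_ifs <;> rfl
      · simp only [upd_inr]; split_ifs <;> rfl
    have h11 : upd v i 1 1 ∈ S := by
      rcases hne with hne | hne
      · have := setA _ (setB v hv i hne 1) i (by simp [upd_inr]) 1
        rwa [upd_inr, if_pos rfl, hupd] at this
      · have := setB _ (setA v hv i hne 1) i (by simp [upd_inl]) 1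
        rwa [upd_inl, if_pos rfl, hupd] at this
    rcases hab with ha | hb
    · have h1 := setA _ h11 i (by simp [upd_inr]) a
      rw [upd_inr, if_pos rfl, hupd] at h1
      have := setB _ h1 i (by simpa [upd_inl] using ha) b
      rwa [upd_inl, if_pos rfl, hupd] at this
    · have h1 := setB _ h11 i (by simp [upd_inl]) b
      rw [upd_inl, if_pos rfl, hupd] at h1
      have := setA _ h1 i (by simpa [upd_inr] using hb) a
      rwa [upd_inr, if_pos rfl, hupd] at this
  have step2 : ∀ s : Finset (Fin m), ∀ v : V, (v (Sum.inl o) ≠ 0 ∨ v (Sum.inr o) ≠ 0) →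
      (∀ k, k ≠ o → k ∉ s → v (Sum.inl k) = 0 ∧ v (Sum.inr k) = 0) → v ∈ S := by
    intro s
    induction s using Finset.induction with
    | empty =>
      intro v hv hz
      convert setP (eB o) (he o) o (Or.inl (by simp [eB])) _ _ hv using 1
      funext k
      rcases k with k | k
      · rw [upd_inl]; split_ifs with hk
        · rw [hk]
        · simp [eB, hk, (hz k hk (by simp)).1]
      · rw [upd_inr]; split_ifs with hk
        · rw [hk]
        · simp [eB, (hz k hk (by simp)).2]
    | insert j s hj ih =>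
      intro v hv hz
      by_cases hvj : j = o ∨ (v (Sum.inl j) = 0 ∧ v (Sum.inr j) = 0)
      · refine ih v hv fun k hk hks => ?_
        rcases eq_or_ne k j with rfl | hkj
        · exact hvj.resolve_left hk
        · exact hz k hk (by simp [hkj, hks])
      push Not at hvj
      obtain ⟨hjo, hvj⟩ := hvj
      let u : V := upd (upd v j 0 0) o 1 0
      have hu : u ∈ S := ih u (Or.inl (by simp [u, upd_inl])) fun k hk hks => by
        rcases eq_or_ne k j with rfl | hkj
        · simp [u, upd_inl, upd_inr, hk]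
        · simp [u, upd_inl, upd_inr, hk, hkj, hz k hk (by simp [hkj, hks])]
      let w : V := upd (eB o + eB j) o 0 1
      have hw : w ∈ S := setP _ (hs j hjo) o (Or.inl (by simp [eB, o, Ne.symm hjo])) 0 1 (Or.inr one_ne_zero)
      have hω : ω u w = -1 := by
        rw [show w = fB o + eB j by
          funext k
          rcases k with k | k
          · simp only [w, upd_inl]; split_ifs with hk <;> simp [eB, fB, hk, Ne.symm hjo]
          · simp only [w, upd_inr]; split_ifs with hk <;> simp [eB, fB, hk]]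
        simp [map_add, omega_e, omega_f, u, upd_inl, upd_inr, hjo]
      have h1 := hmove u hu w hw (-1)
      rw [hω, neg_mul_neg, one_mul, one_smul] at h1
      have h2 := setP _ h1 j (Or.inl (by simp [u, w, upd_inl, eB, hjo])) (v (Sum.inl j)) (v (Sum.inr j))
        (by by_cases h : v (Sum.inl j) = 0; exacts [Or.inr (hvj h), Or.inl h])
      have h3 := setP _ h2 o (Or.inl (by simp [u, w, upd_inl, Ne.symm hjo])) _ _ hv
      convert h3 using 1
      funext k
      rcases k with k | k
      · simp only [upd_inl, Pi.add_apply, u, w]; split_ifs with h1 h2 <;> simp_all [eB]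
      · simp only [upd_inr, Pi.add_apply, u, w]; split_ifs with h1 h2 <;> simp_all [eB]
  have hall : ∀ v : V, v ∈ S := by
    intro v
    by_cases hv0 : v = 0
    · intro c; rw [hv0, tS_zero_left]; exact one_mem _
    by_cases hvo : v (Sum.inl o) ≠ 0 ∨ v (Sum.inr o) ≠ 0
    · exact step2 Finset.univ v hvo fun k _ hk => absurd (Finset.mem_univ k) hk
    push Not at hvo
    obtain ⟨k, hk⟩ : ∃ k, v (Sum.inl k) ≠ 0 ∨ v (Sum.inr k) ≠ 0 := by
      by_contra h; push Not at h
      exact hv0 (funext fun x => by rcases x with x | x; exacts [(h x).1, (h x).2])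
    have hko : k ≠ o := fun e => by rcases hk with hk | hk <;> simp [e, hvo] at hk
    let v' : V := upd v k 1 0
    let w : V := upd (eB o + eB k) k 0 1
    have hw : w ∈ S := setP _ (hs k hko) k (Or.inl (by simp [eB, o, hko])) 0 1 (Or.inr one_ne_zero)
    have hu : v' + w ∈ S := step2 Finset.univ _
      (Or.inl (by simp [v', w, upd_inl, Ne.symm hko, hvo, eB])) fun l _ hl => absurd (Finset.mem_univ l) hl
    have hω : ω (v' + w) w = -1 := by
      rw [show w = eB o + fB k by
        funext l
        rcases l with l | l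
        · simp only [w, upd_inl]; split_ifs with hl <;> simp [eB, fB, hl, hko]
        · simp only [w, upd_inr]; split_ifs with hl <;> simp [eB, fB, hl]]
      simp [map_add, omega_e, omega_f, v', upd_inl, upd_inr, hko, Ne.symm hko, hvo, eB, fB]
    have h1 := hmove _ hu w hw 1
    rw [hω, one_mul, neg_one_smul, add_neg_cancel_right] at h1
    have h2 := setP _ h1 k (Or.inl (by simp [v', upd_inl])) _ _ hk
    convert h2 using 1
    funext l
    rcases l with l | l
    · simp only [upd_inl, v']; split_ifs with hl <;> simp_all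
    · simp only [upd_inr, v']; split_ifs with hl <;> simp_all
  exact eq_top_of_tS_mem H hall

theorem aut_ext (h0 : 0 < m) {α β : MulAut PS} (he : ∀ i c, α (P (eB i) c) = β (P (eB i) c))
    (hf : ∀ i c, α (P (fB i) c) = β (P (fB i) c))
    (hs : ∀ j, j ≠ ⟨0, h0⟩ → ∀ c, α (P (eB ⟨0, h0⟩ + eB j) c) = β (P (eB ⟨0, h0⟩ + eB j) c)) : α = β := by
  let H : Subgroup Sp :=
    { carrier := {A | α (QuotientGroup.mk A) = β (QuotientGroup.mk A)}
      one_mem' := by simp
      mul_mem' := fun {a b} ha hb => by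
        show α (QuotientGroup.mk (a * b)) = _
        rw [QuotientGroup.mk_mul, map_mul, map_mul, ha, hb]
      inv_mem' := fun {a} ha => by
        show α (QuotientGroup.mk a⁻¹) = _
        rw [QuotientGroup.mk_inv, map_inv, map_inv, ha] }
  have h := gen_top h0 H (fun i c => he i c) (fun i c => hf i c) (fun j hj c => hs j hj c)
  refine MulEquiv.ext fun x => ?_
  induction x using QuotientGroup.induction_on with
  | H A => exact (h ▸ Subgroup.mem_top A : A ∈ H)

variable [Fintype F]

/-- Automorphisms mapping transvection groups to transvection groups are inner-diagonal times field. -/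
theorem exists_decomp_of_image (hm : 2 ≤ m) (β : MulAut PS)
    (himg : ∀ x : V, x ≠ 0 → ∃ (w : V) (ψ : F → F), w ≠ 0 ∧ ∀ c, β (P x c) = P w (ψ c)) :
    ∃ (g : Cfsg.GSp m F) (σ : F ≃+* F), β = conjP g * frobP σ := by
  have h0 : 0 < m := by omega
  let o : Fin m := ⟨0, h0⟩
  have heB : ∀ i : Fin m, eB (F := F) i ≠ 0 := fun i => by simp [eB]
  have hfB : ∀ i : Fin m, fB (F := F) i ≠ 0 := fun i => by simp [fB]
  choose we ψe hwe hψe using fun i : Fin m => himg _ (heB i)
  choose wf ψf hwf hψf using fun i : Fin m => himg _ (hfB i)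
  -- orthogonality is preserved
  have horth : ∀ (γ : MulAut PS) {x y w w' : V} {ψ ψ' : F → F}, x ≠ 0 → y ≠ 0 → w ≠ 0 →
      (∀ c, γ (P x c) = P w (ψ c)) → (∀ c, γ (P y c) = P w' (ψ' c)) → (ω w w' = 0 ↔ ω x y = 0) := by
    intro γ x y w w' ψ ψ' hx hy hw h h'
    have n1 : ψ 1 ≠ 0 := fun e => one_ne_zero (P_injective hm hx (a₁ := (1 : F)) (a₂ := 0) (γ.injective (by
      rw [h, e, P_zero, P_zero, map_one])))
    have n2 : ψ' 1 ≠ 0 := fun e => one_ne_zero (P_injective hm hy (a₁ := (1 : F)) (a₂ := 0) (γ.injective (by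
      rw [h', e, P_zero, P_zero, map_one])))
    rw [← commute_iff hm n1 n2 hw, ← commute_iff hm one_ne_zero one_ne_zero hx, ← h, ← h']
    exact ⟨fun hc => by simpa using hc.map γ.symm.toMonoidHom, fun hc => hc.map γ.toMonoidHom⟩
  have hee : ∀ i j : Fin m, ω (eB (F := F) i) (eB j) = 0 := fun i j => by simp [omega_e, eB]
  have hff : ∀ i j : Fin m, ω (fB (F := F) i) (fB j) = 0 := fun i j => by simp [omega_f, fB]
  have hef : ∀ i j : Fin m, ω (eB (F := F) i) (fB j) = if i = j then -1 else 0 := fun i j => by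
    by_cases h : i = j <;> simp [omega_f, eB, h, eq_comm]
  have hfe : ∀ i j : Fin m, ω (fB (F := F) i) (eB j) = if i = j then 1 else 0 := fun i j => by
    by_cases h : i = j <;> simp [omega_e, fB, h, eq_comm]
  have hs : ∀ i, ω (we i) (wf i) ≠ 0 := fun i e => by
    have := (horth β (heB i) (hfB i) (hwe i) (hψe i) (hψf i)).1 e
    rw [hef, if_pos rfl, neg_eq_zero] at this
    exact one_ne_zero this
  let B2 : Fin m ⊕ Fin m → V := Sum.elim we fun i => (-(ω (we i) (wf i))⁻¹) • wf i
  let G : (V) →ₗ[F] V := Fintype.linearCombination F B2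
  have hG1 : ∀ x y, ω (G x) (G y) = ω x y := by
    have hbasis : ∀ a b, ω (B2 a) (B2 b) = ω (Pi.single a (1 : F)) (Pi.single b 1) := by
      rintro (i | i) (j | j)
      · show ω (we i) (we j) = ω (eB i) (eB j)
        rw [hee, (horth β (heB i) (heB j) (hwe i) (hψe i) (hψe j)).2 (hee i j)]
      · show ω (we i) (_ • wf j) = ω (eB i) (fB j)
        rw [hef, map_smul, smul_eq_mul]
        split_ifs with h
        · subst h; rw [neg_mul, inv_mul_cancel₀ (hs i)]
        · rw [(horth β (heB i) (hfB j) (hwe i) (hψe i) (hψf j)).2 (by rw [hef, if_neg h]), mul_zero]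
      · show ω (_ • wf i) (we j) = ω (fB i) (eB j)
        rw [hfe, map_smul, LinearMap.smul_apply, smul_eq_mul, swap (we j) (wf i)]
        split_ifs with h
        · subst h; rw [neg_mul_neg, inv_mul_cancel₀ (hs i)]
        · rw [(horth β (heB j) (hfB i) (hwe j) (hψe j) (hψf i)).2 (by rw [hef, if_neg (Ne.symm h)]), neg_zero,
            mul_zero]
      · show ω (_ • wf i) (_ • wf j) = ω (fB i) (fB j)
        rw [hff, map_smul, map_smul, LinearMap.smul_apply,
          (horth β (hfB i) (hfB j) (hwf i) (hψf i) (hψf j)).2 (hff i j)]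
        simp
    intro x y
    conv_rhs => rw [pi_eq_sum_univ' x, pi_eq_sum_univ' y]
    simp only [G, Fintype.linearCombination_apply, map_sum, map_smul, LinearMap.sum_apply, LinearMap.smul_apply,
      hbasis]
  obtain ⟨g', hg', hgx⟩ := Cfsg.Lib.Classical.Witt.exists_mem_bilIso (sympBilin_nondegenerate F m) G hG1
  obtain ⟨g, hg⟩ := exists_of_iso g' hg'
  have hgG : ∀ a, g.1 *ᵥ Pi.single a (1 : F) = B2 a := fun a => by
    rw [hg, hgx]
    simp [G, Fintype.linearCombination_apply, Pi.single_apply]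
  let gg : Cfsg.GSp m F := ⟨spToGL g, mem_GSp_iff.2 ⟨1, fun x y => by
    rw [coe_spToGL, iso, Units.val_one, one_mul]⟩⟩
  have hgg : ∀ x c, conjP gg⁻¹ (P (g.1 *ᵥ x) c) = P x c := by
    intro x c
    have h := conjP_P gg one_ne_zero (fun u v => by rw [show (gg : GL (Fin m ⊕ Fin m) F).1 = g.1 from coe_spToGL g,
      iso, one_mul]) x c
    rw [div_one, show (gg : GL (Fin m ⊕ Fin m) F).1 = g.1 from coe_spToGL g] at h
    rw [← h, map_inv]
    exact (conjP gg).symm_apply_apply _
  set γ : MulAut PS := conjP gg⁻¹ * β with hγ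
  let qe : Fin m → F → F := fun i c => ψe i c
  let qf : Fin m → F → F := fun i c => ω (we i) (wf i) * ω (we i) (wf i) * ψf i c
  have hγe : ∀ i c, γ (P (eB i) c) = P (eB i) (qe i c) := fun i c => by
    rw [hγ, MulAut.mul_apply, hψe]
    conv_lhs => rw [show we i = g.1 *ᵥ eB i from (hgG (Sum.inl i)).symm]
    rw [hgg]
  have hγf : ∀ i c, γ (P (fB i) c) = P (fB i) (qf i c) := fun i c => by
    rw [hγ, MulAut.mul_apply, hψf]
    have e : wf i = (-ω (we i) (wf i)) • (g.1 *ᵥ fB i) := by
      rw [show g.1 *ᵥ fB i = _ from hgG (Sum.inr i)]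
      show wf i = _ • (_ • wf i)
      rw [smul_smul, neg_mul_neg, mul_inv_cancel₀ (hs i), one_smul]
    conv_lhs => rw [e, P_smul, hgg, neg_mul_neg]
  -- injectivity
  have hne : ∀ (γ : MulAut PS) {x w : V} {ψ : F → F}, x ≠ 0 → (∀ c, γ (P x c) = P w (ψ c)) →
      ∀ {a : F}, a ≠ 0 → ψ a ≠ 0 := fun γ x w ψ hx h a ha e => ha (P_injective hm hx (γ.injective (by
        rw [h, e, P_zero, P_zero, map_one])))
  have hbr : ∀ (γ : MulAut PS) {x y w w' : V} {ψ ψ' : F → F}, x ≠ 0 →
      (∀ c, γ (P x c) = P w (ψ c)) → (∀ c, γ (P y c) = P w' (ψ' c)) → ω x y ≠ 0 → ω w w' ≠ 0 →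
      ∀ a b, a * b * (ω x y * ω x y) = 1 → ψ a * ψ' b * (ω w w' * ω w w') = 1 := by
    intro γ x y w w' ψ ψ' hx h h' h1 h2 a b hab
    have ha : a ≠ 0 := fun e => by simp [e] at hab
    have e := congrArg γ ((braid hm ha h1).2 hab)
    simp only [map_mul, h, h'] at e
    exact (braid hm (hne γ hx h ha) h2).1 e
  have hij : ∀ i : Fin m, ω (eB (F := F) i) (fB i) ≠ 0 := fun i => by simp [hef]
  have hq : ∀ i a, a ≠ 0 → qe i a * qf i a⁻¹ = 1 := fun i a ha => by
    have := hbr γ (heB i) (hγe i) (hγf i) (hij i) (hij i) a a⁻¹ (by simp [hef, ha])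
    simpa [hef] using this
  -- sums
  have hsum : ∀ j, j ≠ o → ∀ t : F, t ≠ 0 → ∃ φ : F, φ ≠ 0 ∧
      (∀ a, γ (P (eB o + t • eB j) a) = P (eB o + φ • eB j) (qe o a)) ∧
      ∀ a, qe j (a * (t * t)) = φ * φ * qe o a := by
    intro j hj t ht
    have hx : eB o + t • eB j ≠ (0 : V) := fun e => by
      have := congrFun e (Sum.inl o); simp [eB, Ne.symm hj] at this
    obtain ⟨w1, χ, hw1, hχ1⟩ := himg _ hx
    set w : V := (g⁻¹).1 *ᵥ w1
    have hw : w ≠ 0 := mulVec_ne_zero _ hw1
    have hχ : ∀ c, γ (P (eB o + t • eB j) c) = P w (χ c) := fun c => by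
      rw [hγ, MulAut.mul_apply, hχ1]
      conv_lhs => rw [← mulVec_inv g w1]
      rw [hgg]
    have hoe : ∀ k, ω w (eB k) = 0 := fun k => (horth γ hx (heB k) hw hχ (hγe k)).2 (by simp [hee])
    have hof : ∀ k, ω w (fB k) = 0 ↔ ω (eB o + t • eB j) (fB k) = 0 := fun k => horth γ hx (hfB k) hw hχ (hγf k)
    have hwo : w (Sum.inl o) ≠ 0 := by
      intro e
      have := (hof o).1 (by rw [omega_f, e, neg_zero])
      simp [hef, hj] at this
    have hwj : w (Sum.inl j) ≠ 0 := by
      intro e
      have := (hof j).1 (by rw [omega_f, e, neg_zero])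
      simp [hef, Ne.symm hj] at this
      exact ht this
    have hwk : w = w (Sum.inl o) • (eB o + (w (Sum.inl j) / w (Sum.inl o)) • eB j) := by
      rw [smul_add, smul_smul, mul_div_cancel₀ _ hwo]
      funext k
      rcases k with k | k
      · rcases eq_or_ne k o with rfl | hko
        · simp [eB, Ne.symm hj]
        rcases eq_or_ne k j with rfl | hkj
        · simp [eB, hj]
        have := (hof k).2 (by simp [hef, Ne.symm hko, Ne.symm hkj])
        rw [omega_f, neg_eq_zero] at this
        simp [eB, hko, hkj, this]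
      · have := hoe k
        rw [omega_e] at this
        simp [eB, this]
    set φ := w (Sum.inl j) / w (Sum.inl o)
    have hφ : φ ≠ 0 := div_ne_zero hwj hwo
    set χ' : F → F := fun a => w (Sum.inl o) * w (Sum.inl o) * χ a
    have hχ' : ∀ a, γ (P (eB o + t • eB j) a) = P (eB o + φ • eB j) (χ' a) := fun a => by
      rw [hχ]; conv_lhs => rw [hwk, P_smul]
    have s1 : ω (eB o + t • eB j) (fB o) = -1 := by simp [hef, hj]
    have s2 : ω (eB o + φ • eB j) (fB o) = -1 := by simp [hef, hj]
    have s3 : ω (eB o + t • eB j) (fB j) = -t := by simp [hef, Ne.symm hj]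
    have s4 : ω (eB o + φ • eB j) (fB j) = -φ := by simp [hef, Ne.symm hj]
    have hz : ∀ i, qe i 0 = 0 := fun i => P_injective hm (heB i) (by rw [← hγe, P_zero, map_one])
    have hχo : ∀ a, χ' a = qe o a := by
      intro a
      by_cases ha : a = 0
      · subst ha
        rw [hz]
        have hne2 : eB o + φ • eB j ≠ (0 : V) := fun e => by
          rw [e] at s2; simp at s2
        exact P_injective hm hne2 (by rw [← hχ', P_zero, map_one, P_zero])
      have h1 := hbr γ hx hχ' (hγf o) (by rw [s1]; simp) (by rw [s2]; simp) a a⁻¹ (by rw [s1]; simp [ha])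
      rw [s2, neg_mul_neg, mul_one, mul_one] at h1
      exact mul_right_cancel₀ (right_ne_zero_of_mul_eq_one h1) (h1.trans (hq o a ha).symm)
    refine ⟨φ, hφ, fun a => by rw [hχ', hχo], fun a => ?_⟩
    by_cases ha : a = 0
    · simp [ha, hz]
    have hat : a * (t * t) ≠ 0 := mul_ne_zero ha (mul_ne_zero ht ht)
    have h1 := hbr γ hx hχ' (hγf j) (by rw [s3]; simp [ht]) (by rw [s4]; simp [hφ]) a (a * (t * t))⁻¹
      (by rw [s3]; field_simp)
    rw [s4, neg_mul_neg, hχo] at h1
    have h2 := hq j _ hat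
    refine mul_right_cancel₀ (right_ne_zero_of_mul_eq_one h2) ?_
    rw [h2, ← h1]
    ring
  let j : Fin m := ⟨1, by omega⟩
  have hjo : j ≠ o := fun e => by simp [j, o] at e
  have hA : qe o 1 ≠ 0 := hne γ (heB o) (hγe o) one_ne_zero
  set A := qe o 1
  let σf : F → F := fun a => qe o a / A
  have hz : ∀ i, qe i 0 = 0 := fun i => P_injective hm (heB i) (by rw [← hγe, P_zero, map_one])
  have hadd : ∀ a b, σf (a + b) = σf a + σf b := fun a b => by
    show _ / A = _ / A + _ / A
    rw [← add_div]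
    refine congrArg (· / A) (P_injective hm (heB o) ?_)
    rw [← hγe, ← P_add, map_mul, hγe, hγe, P_add]
  have hinj : Function.Injective σf := fun a b e => P_injective hm (heB o) (γ.injective (by
    rw [hγe, hγe]; exact congrArg _ ((div_left_inj' hA).1 e)))
  have hσ0 : σf 0 = 0 := by simp [σf, hz]
  have hσ1 : σf 1 = 1 := div_self hA
  have hquad : ∀ a s, σf (a * (s * s)) = σf a * σf (s * s) := by
    intro a s
    by_cases hs0 : s = 0
    · simp [hs0, hσ0]
    obtain ⟨φ, -, -, h1⟩ := hsum j hjo 1 one_ne_zero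
    obtain ⟨χ, -, -, h2⟩ := hsum j hjo s hs0
    have hφ : φ ≠ 0 := fun e => by
      have := h1 1
      rw [e, zero_mul, zero_mul, one_mul, one_mul] at this
      exact hne γ (heB j) (hγe j) one_ne_zero this
    have e1 := h1 (a * (s * s))
    have e2 := h2 a
    have e3 := h1 (1 * (s * s))
    have e4 := h2 1
    rw [one_mul, mul_one] at e1
    rw [one_mul] at e3 e4
    rw [one_mul, mul_one] at e3
    simp only [σf]
    rw [div_mul_div_comm, div_eq_div_iff hA (mul_ne_zero hA hA)]
    refine mul_left_cancel₀ (mul_ne_zero hφ hφ) ?_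
    linear_combination (e2 - e1) * (A * A) + qe o a * A * (e3 - e4)
  have hneg : ∀ a, σf (-a) = -σf a := fun a =>
    eq_neg_of_add_eq_zero_left (by rw [← hadd, neg_add_cancel, hσ0])
  have hmul : ∀ a b, σf (a * b) = σf a * σf b := by
    intro a b
    by_cases h2 : (2 : F) = 0
    · haveI : CharP F 2 := CharTwo.of_one_ne_zero_of_two_eq_zero one_ne_zero h2
      haveI : Fact (Nat.Prime 2) := ⟨Nat.prime_two⟩
      obtain ⟨c, hc⟩ := (bijective_frobenius F 2).2 b
      have hc' : c ^ 2 = b := hc
      rw [← hc', pow_two, hquad]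
    · have e1 := hquad a (b + 1)
      have e2 := hquad a b
      rw [show (b + 1) * (b + 1) = b * b + (b + (b + 1)) by ring, mul_add, mul_add, mul_add, mul_one, hadd, hadd,
        hadd, hadd, hadd, hadd, hσ1] at e1
      refine mul_left_cancel₀ h2 ?_
      linear_combination e1 - e2
  let σ : F ≃+* F := RingEquiv.ofBijective
    ({ toFun := σf, map_one' := hσ1, map_mul' := hmul, map_zero' := hσ0, map_add' := hadd } : F →+* F)
    (Finite.injective_iff_bijective.1 hinj)
  have hσ : ∀ a, σ a = qe o a / A := fun a => rfl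
  choose φ hφ hφs hφe using fun k : {k : Fin m // k ≠ o} => hsum k.1 k.2 1 one_ne_zero
  let d : Fin m → F := fun i => if h : i = o then 1 else (φ ⟨i, h⟩)⁻¹
  have hd : ∀ i, d i ≠ 0 := fun i => by
    simp only [d]; split_ifs with h
    exacts [one_ne_zero, inv_ne_zero (hφ _)]
  let Dv : Fin m ⊕ Fin m → F := Sum.elim d fun i => A / d i
  let DG : GL (Fin m ⊕ Fin m) F := Matrix.GeneralLinearGroup.mkOfDetNeZero (Matrix.diagonal Dv) (by
    rw [det_diagonal]
    refine Finset.prod_ne_zero_iff.2 fun x _ => ?_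
    rcases x with x | x
    exacts [hd x, div_ne_zero hA (hd x)])
  have hDm : ∀ x y, ω (DG.1 *ᵥ x) (DG.1 *ᵥ y) = A * ω x y := fun x y => by
    show ω (Matrix.diagonal Dv *ᵥ x) (Matrix.diagonal Dv *ᵥ y) = _
    rw [sympBilin_apply, sympBilin_apply, Cfsg.Lib.Classical.sympForm_eq_sum, Cfsg.Lib.Classical.sympForm_eq_sum,
      Finset.mul_sum]
    refine Finset.sum_congr rfl fun i _ => ?_
    simp only [mulVec_diagonal, Dv, Sum.elim_inl, Sum.elim_inr]
    have := hd i
    field_simp
  let D : Cfsg.GSp m F := ⟨DG, mem_GSp_iff.2 ⟨Units.mk0 A hA, hDm⟩⟩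
  have hDP : ∀ x c, conjP D (P x c) = P (Matrix.diagonal Dv *ᵥ x) (c / A) := fun x c => conjP_P D hA hDm x c
  have hfinal : conjP D * γ = frobP σ := by
    have hmapS : ∀ a : Fin m ⊕ Fin m, (fun k => σ ((Pi.single a (1 : F) : V) k)) = Pi.single a 1 := fun a => by
      funext k; by_cases h : k = a <;> simp [h]
    have hDs : ∀ a : Fin m ⊕ Fin m, Matrix.diagonal Dv *ᵥ Pi.single a (1 : F) = Dv a • Pi.single a 1 := fun a => by
      funext k; rw [mulVec_diagonal]; by_cases h : k = a <;> simp [h]
    have hqi : ∀ i a, qe i a = (d i)⁻¹ * (d i)⁻¹ * (σ a * A) := by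
      intro i a
      rw [hσ, div_mul_cancel₀ _ hA]
      simp only [d]
      split_ifs with h
      · rw [h]; simp
      · rw [inv_inv]
        have := hφe ⟨i, h⟩ a
        rwa [mul_one, mul_one] at this
    refine aut_ext h0 (fun i c => ?_) (fun i c => ?_) (fun k hk c => ?_)
    · rw [MulAut.mul_apply, hγe, hDP, frobP_P, hmapS, hDs, P_smul]
      congr 1
      show d i * d i * (qe i c / A) = _
      rw [hqi]
      have := hd i
      field_simp
    · rw [MulAut.mul_apply, hγf, hDP, frobP_P, hmapS, hDs, P_smul]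
      congr 1
      show A / d i * (A / d i) * (qf i c / A) = _
      by_cases hc : c = 0
      · subst hc
        rw [map_zero]
        rw [show qf i 0 = 0 from P_injective hm (hfB i) (by rw [← hγf, P_zero, map_one])]
        simp
      have h1 := hq i c⁻¹ (inv_ne_zero hc)
      rw [inv_inv, hqi, map_inv₀] at h1
      have := hd i
      have : σ c ≠ 0 := by simpa using hc
      field_simp at h1 ⊢
      linear_combination h1
    · rw [MulAut.mul_apply, frobP_P]
      have e1 := hφs ⟨k, hk⟩ c
      rw [one_smul] at e1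
      rw [e1, hDP]
      rw [show (fun l => σ ((eB o + eB k : V) l)) = eB o + eB k by
        funext l
        show σ ((eB o : V) l + (eB k : V) l) = (eB o : V) l + (eB k : V) l
        rw [map_add]
        exact congrArg₂ (· + ·) (congrFun (hmapS (Sum.inl o)) l) (congrFun (hmapS (Sum.inl k)) l),
        mulVec_add, mulVec_smul, hDs, hDs, smul_smul]
      show P (d o • eB o + (φ ⟨k, hk⟩ * d k) • eB k) (qe o c / A) = _
      rw [show d o = 1 from dif_pos rfl, one_smul, show d k = (φ ⟨k, hk⟩)⁻¹ from dif_neg hk,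
        mul_inv_cancel₀ (hφ _), one_smul, hσ]
  refine ⟨gg * D⁻¹, σ, ?_⟩
  rw [map_mul, map_inv, ← hfinal, hγ, map_inv]
  group

/-- **Automorphisms of `PSp_{2m}(F)`.** -/
theorem exists_decomp {p : ℕ} [Fact p.Prime] [CharP F p] (hm : 2 ≤ m) (hp : p = 2 → 3 ≤ m) (β : MulAut PS) :
    ∃ (g : Cfsg.GSp m F) (σ : F ≃+* F), β = conjP g * frobP σ :=
  exists_decomp_of_image hm β fun _ hx => exists_image p hm hp β hx

end Cfsg.Lib.Classical.PSpAut
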