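/-
Multipliers, kernels and normality for the automorphisms of `PSp_{2m}(F)`.
-/
import Mathlib
import Cfsg.Agent.Lib.Classical.PSpAut.Main

set_option autoImplicit false

open scoped Classical

namespace Cfsg.Lib.Classical.PSpAut

open Matrix
open Cfsg.Lib.Classical (sympBilin sympBilin_apply spToGL coe_spToGL)
open scoped MatrixGroups

variable {F : Type*} [Field F] {m : ℕ}

set_option quotPrecheck false in
local notation "V" => (Fin m ⊕ Fin m → F)
set_option quotPrecheck false in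
local notation "Sp" => (↥(Matrix.symplecticGroup (Fin m) F))
set_option quotPrecheck false in
local notation "PS" => (Cfsg.PSp m F)
set_option quotPrecheck false in
local notation "ω" => sympBilin F m

theorem mem_GSp_of_basis (g : GL (Fin m ⊕ Fin m) F) (μ : Fˣ)
    (h : ∀ a b, ω (g.1 *ᵥ Pi.single a 1) (g.1 *ᵥ Pi.single b 1) = (μ : F) * ω (Pi.single a 1) (Pi.single b 1)) :
    g ∈ Cfsg.GSp m F := by
  refine mem_GSp_iff.2 ⟨μ, fun x y => ?_⟩
  conv_lhs => rw [pi_eq_sum_univ' x, pi_eq_sum_univ' y]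
  conv_rhs => rw [pi_eq_sum_univ' x, pi_eq_sum_univ' y]
  simp only [mulVec_sum, mulVec_smul, map_sum, map_smul, LinearMap.sum_apply, LinearMap.smul_apply, h,
    Finset.mul_sum, smul_eq_mul]
  refine Finset.sum_congr rfl fun a _ => Finset.sum_congr rfl fun b _ => ?_
  ring

theorem omega_pair (i : Fin m) : ω (fB i) (eB (F := F) i) = 1 := by simp [omega_e, fB]

/-- The multiplier. -/
noncomputable def mult (hm : 0 < m) : Cfsg.GSp m F →* Fˣ where
  toFun g := (mem_GSp_iff.1 g.2).choose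
  map_one' := by
    have h := (mem_GSp_iff.1 (1 : Cfsg.GSp m F).2).choose_spec (fB ⟨0, hm⟩) (eB ⟨0, hm⟩)
    refine Units.ext ?_
    rw [omega_pair, mul_one] at h
    rw [← h]
    show ω ((1 : Matrix (Fin m ⊕ Fin m) (Fin m ⊕ Fin m) F) *ᵥ _) ((1 : Matrix (Fin m ⊕ Fin m) (Fin m ⊕ Fin m) F) *ᵥ _) = _
    rw [one_mulVec, one_mulVec, omega_pair]
    rfl
  map_mul' a b := by
    have h := (mem_GSp_iff.1 (a * b).2).choose_spec (fB ⟨0, hm⟩) (eB ⟨0, hm⟩)
    have ha := (mem_GSp_iff.1 a.2).choose_spec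
    have hb := (mem_GSp_iff.1 b.2).choose_spec (fB ⟨0, hm⟩) (eB ⟨0, hm⟩)
    refine Units.ext ?_
    rw [omega_pair, mul_one] at h hb
    rw [← h, Units.val_mul, ← hb, Subgroup.coe_mul, Units.val_mul, ← mulVec_mulVec, ← mulVec_mulVec, ha]

theorem mult_spec (hm : 0 < m) (g : Cfsg.GSp m F) (x y : V) :
    ω (g.1.1 *ᵥ x) (g.1.1 *ᵥ y) = (mult hm g : F) * ω x y :=
  (mem_GSp_iff.1 g.2).choose_spec x y

theorem mult_eq (hm : 0 < m) (g : Cfsg.GSp m F) {μ : F}
    (h : ∀ x y, ω (g.1.1 *ᵥ x) (g.1.1 *ᵥ y) = μ * ω x y) : (mult hm g : F) = μ := by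
  have e := mult_spec hm g (fB ⟨0, hm⟩) (eB ⟨0, hm⟩)
  rw [h, omega_pair, mul_one, mul_one] at e
  exact e.symm

/-- A scalar similitude. -/
def sc (r : Fˣ) : Cfsg.GSp m F :=
  ⟨Matrix.GeneralLinearGroup.scalar _ r, mem_GSp_iff.2 ⟨r * r, fun x y => by
    show ω (Matrix.scalar (Fin m ⊕ Fin m) (r : F) *ᵥ x) (Matrix.scalar (Fin m ⊕ Fin m) (r : F) *ᵥ y) = _
    simp only [scalar_apply, ← smul_one_eq_diagonal, smul_mulVec, one_mulVec, map_smul, LinearMap.smul_apply,
      smul_eq_mul, Units.val_mul]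
    ring⟩⟩

theorem coe_sc (r : Fˣ) : (sc (m := m) r).1.1 = (r : F) • (1 : Matrix (Fin m ⊕ Fin m) (Fin m ⊕ Fin m) F) := by
  show Matrix.scalar (Fin m ⊕ Fin m) (r : F) = _
  rw [scalar_apply, smul_one_eq_diagonal]

theorem sc_mulVec (r : Fˣ) (x : V) : (sc (m := m) r).1.1 *ᵥ x = (r : F) • x := by
  rw [coe_sc, smul_mulVec, one_mulVec]

theorem mult_sc (hm : 0 < m) (r : Fˣ) : mult hm (sc r : Cfsg.GSp m F) = r * r :=
  Units.ext (mult_eq hm _ fun x y => by
    rw [sc_mulVec, sc_mulVec, map_smul, map_smul, LinearMap.smul_apply, Units.val_mul, smul_eq_mul, smul_eq_mul,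
      mul_assoc])

theorem conjP_sc (r : Fˣ) : conjP (sc r : Cfsg.GSp m F) = 1 := by
  refine MulEquiv.ext fun x => ?_
  induction x using QuotientGroup.induction_on with
  | H s =>
    rw [conjP_mk, MulAut.one_apply]
    refine congrArg QuotientGroup.mk (Subtype.ext ?_)
    rw [coe_conjSp, coe_sc, smul_mul_assoc, one_mul,
      show ((sc (m := m) r).1⁻¹).1 = ((r⁻¹ : Fˣ) : F) • (1 : Matrix (Fin m ⊕ Fin m) (Fin m ⊕ Fin m) F) from by
        show (Matrix.GeneralLinearGroup.scalar (Fin m ⊕ Fin m) r)⁻¹.1 = _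
        rw [← map_inv]
        show Matrix.scalar (Fin m ⊕ Fin m) ((r⁻¹ : Fˣ) : F) = _
        rw [scalar_apply, smul_one_eq_diagonal],
      mul_smul_comm, mul_one, smul_smul, Units.inv_mul, one_smul]

/-- The only trivial product of a conjugation and a field automorphism is scalar. -/
theorem scalar_of_eq_one (hm : 2 ≤ m) {g : Cfsg.GSp m F} {σ : F ≃+* F}
    (h : (conjP g * frobP σ : MulAut PS) = 1) : σ = 1 ∧ ∃ r : Fˣ, g = sc r := by
  have h0 : 0 < m := by omega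
  have key : ∀ v : V, v ≠ 0 → ∃ r : F, v = r • (g.1.1 *ᵥ fun i => σ (v i)) := by
    intro v hv
    have e := MulEquiv.congr_fun h (P v 1)
    rw [MulAut.mul_apply, frobP_P, conjP_P g (mult h0 g).ne_zero (mult_spec h0 g), MulAut.one_apply] at e
    obtain ⟨r, hr, -⟩ := P_eq_param hm one_ne_zero hv e.symm
    exact ⟨r, hr⟩
  have hsb : ∀ a : Fin m ⊕ Fin m, (fun i => σ ((Pi.single a (1 : F) : V) i)) = Pi.single a 1 := fun a => by
    funext i; by_cases hi : i = a <;> simp [hi]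
  have hd : ∀ a : Fin m ⊕ Fin m, ∃ r : F, r ≠ 0 ∧ g.1.1 *ᵥ Pi.single a 1 = r • Pi.single a 1 := by
    intro a
    obtain ⟨r, hr⟩ := key (Pi.single a 1) (by simp)
    rw [hsb] at hr
    have hr0 : r ≠ 0 := fun e => by
      have := congrFun hr a
      simp [e] at this
    refine ⟨r⁻¹, inv_ne_zero hr0, ?_⟩
    conv_rhs => rw [hr]
    rw [smul_smul, inv_mul_cancel₀ hr0, one_smul]
  choose d hd0 hd using hd
  have hrel : ∀ a b : Fin m ⊕ Fin m, a ≠ b → ∀ t : F, σ t * d b = t * d a := by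
    intro a b hab t
    have hne : (Pi.single a 1 + t • Pi.single b 1 : V) ≠ 0 := fun e => by
      have := congrFun e a; simp [hab] at this
    obtain ⟨r, hr⟩ := key _ hne
    have e : (fun i => σ ((Pi.single a 1 + t • Pi.single b 1 : V) i)) = Pi.single a 1 + σ t • Pi.single b 1 := by
      funext i
      simp only [Pi.add_apply, Pi.smul_apply, smul_eq_mul, map_add, map_mul]
      rw [congrFun (hsb a) i, congrFun (hsb b) i]
    rw [e, mulVec_add, mulVec_smul, hd, hd] at hr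
    have ea := congrFun hr a
    have eb := congrFun hr b
    simp [hab, Ne.symm hab] at ea eb
    have hr0 : r ≠ 0 := left_ne_zero_of_mul_eq_one ea.symm
    refine mul_left_cancel₀ hr0 ?_
    rw [mul_left_comm r t, ← ea, mul_one, ← eb]
  have heq : ∀ a b, d a = d b := fun a b => by
    by_cases hab : a = b
    · rw [hab]
    simpa using (hrel a b hab 1).symm
  let o : Fin m ⊕ Fin m := Sum.inl ⟨0, h0⟩
  refine ⟨RingEquiv.ext fun t => ?_, Units.mk0 (d o) (hd0 o), Subtype.ext (Units.ext ?_)⟩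
  · have := hrel o (Sum.inr ⟨0, h0⟩) (by simp [o]) t
    rw [heq (Sum.inr _) o] at this
    exact mul_right_cancel₀ (hd0 o) this
  · refine Matrix.ext_of_mulVec_single fun a => ?_
    rw [hd, sc_mulVec, heq a o]
    rfl

theorem conjP_eq_one_iff (hm : 2 ≤ m) {g : Cfsg.GSp m F} : conjP g = 1 ↔ ∃ r : Fˣ, g = sc r := by
  constructor
  · intro h
    exact (scalar_of_eq_one hm (σ := 1) (by rw [frobP_one, mul_one, h])).2
  · rintro ⟨r, rfl⟩
    exact conjP_sc r

theorem frobP_injective (hm : 2 ≤ m) : Function.Injective (frobP (m := m) (F := F)) := by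
  intro σ τ h
  refine eq_of_mul_inv_eq_one (scalar_of_eq_one hm (g := 1) ?_).1
  rw [map_one, one_mul, ← frobP_mul, h, frobP_mul, mul_inv_cancel, frobP_one]

/-- The field automorphisms as a homomorphism. -/
def frobHom : (F ≃+* F) →* MulAut PS where
  toFun := frobP
  map_one' := frobP_one
  map_mul' σ τ := (frobP_mul σ τ).symm

theorem orderOf_frobP (hm : 2 ≤ m) (σ : F ≃+* F) : orderOf (frobP σ : MulAut PS) = orderOf σ :=
  orderOf_injective (frobHom (m := m)) (frobP_injective hm) σ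

/-- An element of `Sp` as a similitude. -/
def ofSp (A : Sp) : Cfsg.GSp m F :=
  ⟨spToGL A, mem_GSp_iff.2 ⟨1, fun x y => by rw [coe_spToGL, iso, Units.val_one, one_mul]⟩⟩

theorem conj_mk (A : Sp) : MulAut.conj (QuotientGroup.mk A : PS) = conjP (ofSp A) := by
  refine MulEquiv.ext fun z => ?_
  induction z using QuotientGroup.induction_on with
  | H t =>
    rw [conjP_mk, MulAut.conj_apply, ← QuotientGroup.mk_inv, ← QuotientGroup.mk_mul, ← QuotientGroup.mk_mul]
    refine congrArg QuotientGroup.mk (Cfsg.Lib.Classical.spToGL_injective ?_)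
    show _ = spToGL (conjFun (ofSp A) t)
    rw [coe_conjFun, map_mul, map_mul, map_inv]
    rfl

theorem conjP_mem_Inn_iff (hm : 2 ≤ m) (g : Cfsg.GSp m F) :
    conjP g ∈ Cfsg.Inn PS ↔ ∃ u : Fˣ, mult (by omega : 0 < m) g = u * u := by
  have h0 : 0 < m := by omega
  constructor
  · rintro ⟨k, hk⟩
    obtain ⟨A, rfl⟩ := QuotientGroup.mk_surjective k
    rw [conj_mk] at hk
    obtain ⟨r, hr⟩ := (conjP_eq_one_iff hm).1 (show conjP ((ofSp A)⁻¹ * g) = 1 by
      rw [map_mul, map_inv, hk, inv_mul_cancel])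
    rw [inv_mul_eq_iff_eq_mul] at hr
    refine ⟨r, ?_⟩
    rw [hr, map_mul, mult_sc, show mult h0 (ofSp A) = 1 from Units.ext (mult_eq h0 _ fun x y => by
      rw [show (ofSp A).1.1 = A.1 from coe_spToGL A, iso, Units.val_one, one_mul]), one_mul]
  · rintro ⟨u, hu⟩
    have hd : mult h0 (sc u⁻¹ * g) = 1 := by
      rw [map_mul, mult_sc, hu]; group
    have hmem : (sc u⁻¹ * g : Cfsg.GSp m F).1.1 ∈ Matrix.symplecticGroup (Fin m) F := by
      rw [Cfsg.Lib.Classical.mem_symplecticGroup_iff_spGL, Cfsg.Lib.Classical.mem_spGL_iff]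
      intro x y
      rw [mult_spec h0 (sc u⁻¹ * g) x y, hd, Units.val_one, one_mul]
    refine ⟨QuotientGroup.mk ⟨_, hmem⟩, ?_⟩
    rw [conj_mk, show ofSp ⟨_, hmem⟩ = sc u⁻¹ * g from Subtype.ext (Units.ext (coe_spToGL _)), map_mul,
      conjP_sc, one_mul]

theorem inn_le (hm : 2 ≤ m) : Cfsg.Inn PS ≤ (conjP (m := m) (F := F)).range := by
  rintro _ ⟨k, rfl⟩
  obtain ⟨A, rfl⟩ := QuotientGroup.mk_surjective k
  exact ⟨_, (conj_mk A).symm⟩

theorem Inn_conj (α h : MulAut PS) (hh : h ∈ Cfsg.Inn PS) : α * h * α⁻¹ ∈ Cfsg.Inn PS := by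
  obtain ⟨k, rfl⟩ := hh
  exact ⟨α k, MulEquiv.ext fun z => by simp [MulAut.conj_apply, MulAut.mul_apply]⟩

variable [Fintype F]

theorem inndiag_eq_Inn (hm : 2 ≤ m) [CharP F 2] : inndiagPSp m F = Cfsg.Inn PS := by
  rw [inndiag_eq]
  refine le_antisymm ?_ (inn_le hm)
  rintro _ ⟨g, rfl⟩
  haveI : Fact (Nat.Prime 2) := ⟨Nat.prime_two⟩
  obtain ⟨c, hc⟩ := (bijective_frobenius F 2).2 (mult (by omega : 0 < m) g : F)
  have hc' : c ^ 2 = (mult (by omega : 0 < m) g : F) := hc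
  have hc0 : c ≠ 0 := fun e => (mult (by omega : 0 < m) g).ne_zero (by rw [← hc', e]; simp)
  exact (conjP_mem_Inn_iff hm g).2 ⟨Units.mk0 c hc0, Units.ext (by rw [Units.val_mul, Units.val_mk0, ← pow_two, hc'])⟩

theorem inndiag_conj (hm : 2 ≤ m) (α h : MulAut PS) (hh : h ∈ inndiagPSp m F) :
    α * h * α⁻¹ ∈ inndiagPSp m F := by
  obtain ⟨p, hp⟩ := CharP.exists F
  haveI : Fact p.Prime := ⟨CharP.char_is_prime F p⟩
  by_cases h2 : p = 2
  · subst h2
    rw [inndiag_eq_Inn hm] at hh ⊢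
    exact Inn_conj α h hh
  obtain ⟨g, σ, rfl⟩ := exists_decomp (p := p) hm (fun e => absurd e h2) α
  rw [inndiag_eq] at hh ⊢
  obtain ⟨d, rfl⟩ := hh
  refine ⟨g * mapG σ d * g⁻¹, ?_⟩
  rw [map_mul, map_mul, map_inv]
  calc conjP g * conjP (mapG σ d) * (conjP g)⁻¹
      = conjP g * (conjP (mapG σ d) * frobP σ) * (frobP σ)⁻¹ * (conjP g)⁻¹ := by group
    _ = conjP g * (frobP σ * conjP d) * (frobP σ)⁻¹ * (conjP g)⁻¹ := by rw [frobP_conjP]
    _ = _ := by group

theorem gamma_eq_top {p : ℕ} [Fact p.Prime] [CharP F p] (hm : 2 ≤ m) (hp : p = 2 → 3 ≤ m) :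
    gammaPSp m F = ⊤ := by
  refine eq_top_iff.2 fun β _ => ?_
  obtain ⟨g, σ, rfl⟩ := exists_decomp hm hp β
  exact mem_gamma g σ

end Cfsg.Lib.Classical.PSpAut
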