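/-
Field automorphisms of `PSp_{2m}(F)` of prime order: centralisers, conjugacy and class splitting.
-/
import Mathlib
import Cfsg.Agent.Lib.Classical.PSpAut.Kernel
import Cfsg.Agent.Lib.Classical.PSpAut.Basis
import Cfsg.Agent.Lib.Classical.PSLAut.Count

set_option autoImplicit false

open scoped Classical

namespace Cfsg.Lib.Classical.PSpAut

open Matrix
open Cfsg.Lib.Classical (sympBilin sympBilin_apply sympBilin_isAlt sympBilin_nondegenerate sympForm_eq_sum)
open Cfsg.Lib.Classical.FinField (nrm coe_nrm nrm_surjective hilbert90 fixed mem_fixed fixed_card_eq card_fixed)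
open Cfsg.Lib.Classical.PSLAut (splitClassCount_eq index_pow_sup)
open scoped MatrixGroups

variable {F : Type*} [Field F] {m : ℕ}

set_option quotPrecheck false in
local notation "V" => (Fin m ⊕ Fin m → F)
set_option quotPrecheck false in
local notation "PS" => (Cfsg.PSp m F)
set_option quotPrecheck false in
local notation "ω" => sympBilin F m

theorem exists_pow_eq (g : Cfsg.GSp m F) (σ : F ≃+* F) (k : ℕ) :
    ∃ N : Cfsg.GSp m F, (conjP g * frobP σ : MulAut PS) ^ k = conjP N * frobP (σ ^ k) ∧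
      ∀ v, (semiV g.1 σ)^[k] v = N.1.1 *ᵥ fun i => (σ ^ k) (v i) := by
  induction k with
  | zero => exact ⟨1, by rw [pow_zero, pow_zero, frobP_one, map_one, one_mul], fun v => by simp⟩
  | succ k ih =>
    obtain ⟨N, hN, hv⟩ := ih
    refine ⟨g * mapG σ N, ?_, fun v => ?_⟩
    · rw [pow_succ', hN, map_mul, pow_succ', ← frobP_mul]
      calc conjP g * frobP σ * (conjP N * frobP (σ ^ k))
          = conjP g * (frobP σ * conjP N) * frobP (σ ^ k) := by group
        _ = _ := by rw [frobP_conjP]; group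
    · rw [Function.iterate_succ_apply', hv, semiV, Subgroup.coe_mul, Units.val_mul, ← mulVec_mulVec, coe_mapG,
        map_mulVec', pow_succ']
      rfl

theorem semiV_smul (g : GL (Fin m ⊕ Fin m) F) (σ : F ≃+* F) (c : F) (v : V) :
    semiV g σ (c • v) = σ c • semiV g σ v := by
  rw [semiV, semiV, ← mulVec_smul]
  congr 1
  funext k
  simp

theorem map_col (σ : F ≃+* F) (M : Matrix (Fin m ⊕ Fin m) (Fin m ⊕ Fin m) F) (a : Fin m ⊕ Fin m) :
    M.map σ *ᵥ Pi.single a 1 = fun i => σ ((M *ᵥ Pi.single a 1) i) := by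
  funext i; simp

variable [Fintype F]

/-- **Conjugacy in a coset of a field automorphism.** -/
theorem field_conj (hm : 2 ≤ m) {σ : F ≃+* F} {r : ℕ} (hr : orderOf σ = r) (g : Cfsg.GSp m F)
    (h : (conjP g * frobP σ : MulAut PS) ^ r = 1) :
    ∃ b : Cfsg.GSp m F, (conjP g * frobP σ : MulAut PS) = conjP b * frobP σ * (conjP b)⁻¹ := by
  have hr0 : 0 < r := hr ▸ orderOf_pos σ
  have h0 : 0 < m := by omega
  let o : Fin m ⊕ Fin m := Sum.inl ⟨0, h0⟩
  obtain ⟨N, hN, hv⟩ := exists_pow_eq g σ r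
  rw [hN] at h
  have hσr : σ ^ r = 1 := hr ▸ pow_orderOf_eq_one σ
  obtain ⟨-, c, rfl⟩ := scalar_of_eq_one hm h
  have hTr : ∀ v, (semiV g.1 σ)^[r] v = (c : F) • v := fun v => by
    rw [hv, hσr, sc_mulVec]
    rfl
  have hfix : σ (c : F) = c := by
    have e1 : (semiV g.1 σ)^[r] (semiV g.1 σ (Pi.single o 1)) = (c : F) • semiV g.1 σ (Pi.single o 1) := hTr _
    rw [← Function.iterate_succ_apply, Function.iterate_succ_apply', hTr, semiV_smul] at e1
    have hne : semiV g.1 σ (Pi.single o 1) ≠ 0 := by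
      refine Cfsg.Lib.Classical.mulVec_ne_zero g.1 fun e => ?_
      have := congrFun e o
      simp at this
    have e2 : (σ (c : F) - c) • semiV g.1 σ (Pi.single o 1) = 0 := by rw [sub_smul, e1, sub_self]
    exact sub_eq_zero.1 ((smul_eq_zero.1 e2).resolve_right hne)
  obtain ⟨μ, hμ⟩ := nrm_surjective σ hr hr0 (y := c⁻¹) (by rw [Units.val_inv_eq_inv_val, map_inv₀, hfix])
  set g' : Cfsg.GSp m F := sc μ * g
  have hsemi : ∀ v, semiV g'.1 σ v = (μ : F) • semiV g.1 σ v := fun v => by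
    rw [semiV, semiV, Subgroup.coe_mul, Units.val_mul, ← mulVec_mulVec, sc_mulVec]
  have hk : ∀ k v, (semiV g'.1 σ)^[k] v = (∏ i ∈ Finset.range k, (σ ^ i) (μ : F)) • (semiV g.1 σ)^[k] v := by
    intro k
    induction k with
    | zero => intro v; simp
    | succ k ih =>
      intro v
      rw [Function.iterate_succ_apply', ih, hsemi, semiV_smul, smul_smul, Finset.prod_range_succ',
        ← Function.iterate_succ_apply' (semiV g.1 σ)]
      congr 1
      simp only [map_prod, pow_succ', RingAut.mul_apply, pow_zero, RingAut.one_apply]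
      ring
  have hprod := congrArg Units.val hμ
  rw [coe_nrm, Units.val_inv_eq_inv_val] at hprod
  obtain ⟨a, ha⟩ := speiserV g'.1 σ hr hr0 fun v => by
    rw [hk, hTr, hprod, smul_smul, inv_mul_cancel₀ c.ne_zero, one_smul]
  -- the transported form
  let M : Matrix (Fin m ⊕ Fin m) (Fin m ⊕ Fin m) F :=
    Matrix.of fun i j => ω (a.1 *ᵥ Pi.single i 1) (a.1 *ᵥ Pi.single j 1)
  set ν' := mult h0 g'
  have hM : ∀ i j, M i j = (ν' : F) * σ (M i j) := fun i j => by
    have hcol : ∀ k, a.1 *ᵥ Pi.single k 1 = g'.1.1 *ᵥ fun l => σ ((a.1 *ᵥ Pi.single k 1) l) := fun k => by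
      conv_lhs => rw [← ha, ← mulVec_mulVec, map_col]
    show ω _ _ = _
    rw [hcol i, hcol j, mult_spec h0 g', omega_map]
    rfl
  obtain ⟨i0, j0, hne0⟩ : ∃ i j, M i j ≠ 0 := by
    by_contra hh
    push Not at hh
    have h1 : a.1 *ᵥ Pi.single o 1 ≠ 0 := Cfsg.Lib.Classical.mulVec_ne_zero a (by simp)
    obtain ⟨z, hz⟩ := exists_eq_one h1
    rw [← Cfsg.Lib.Classical.mulVec_inv_mulVec a z, pi_eq_sum_univ' ((a⁻¹).1 *ᵥ z)] at hz
    simp only [mulVec_sum, mulVec_smul, map_sum, map_smul, LinearMap.sum_apply, LinearMap.smul_apply] at hz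
    rw [Finset.sum_eq_zero (fun x _ => by rw [show ω _ _ = M x o from rfl, hh, smul_zero])] at hz
    exact zero_ne_one hz
  have hit : ∀ k, M i0 j0 = (∏ l ∈ Finset.range k, (σ ^ l) (ν' : F)) * (σ ^ k) (M i0 j0) := by
    intro k
    induction k with
    | zero => simp
    | succ k ih =>
      conv_lhs => rw [ih, hM i0 j0, map_mul]
      rw [Finset.prod_range_succ, pow_succ, RingAut.mul_apply]
      ring
  have hn : nrm σ r ν'⁻¹ = 1 := by
    have e := hit r
    rw [hσr, RingAut.one_apply] at e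
    rw [map_inv, inv_eq_one]
    refine Units.ext ?_
    rw [coe_nrm, Units.val_one]
    exact mul_right_cancel₀ hne0 (e.symm.trans (one_mul _).symm)
  obtain ⟨ν, hν⟩ := hilbert90 σ hr hr0 hn
  have hfixM : ∀ i j, σ ((ν : F) * M i j) = (ν : F) * M i j := fun i j => by
    rw [map_mul]
    conv_rhs => rw [hM i j, ← hν, Units.val_inv_eq_inv_val]
    field_simp
  let K := fixed σ
  let M0 : Matrix (Fin m ⊕ Fin m) (Fin m ⊕ Fin m) K :=
    Matrix.of fun i j => ⟨(ν : F) * M i j, mem_fixed.2 (hfixM i j)⟩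
  let B0 := Matrix.toBilin' M0
  let ι' : (Fin m ⊕ Fin m → K) → V := fun x i => (x i : F)
  have hB0 : ∀ x y, ((B0 x y : K) : F) = (ν : F) * ω (a.1 *ᵥ ι' x) (a.1 *ᵥ ι' y) := by
    intro x y
    rw [Matrix.toBilin'_apply]
    conv_rhs => rw [pi_eq_sum_univ' (ι' x), pi_eq_sum_univ' (ι' y)]
    simp only [mulVec_sum, mulVec_smul, map_sum, map_smul, LinearMap.sum_apply, LinearMap.smul_apply, smul_eq_mul,
      Finset.mul_sum, AddSubmonoidClass.coe_finset_sum, MulMemClass.coe_mul]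
    rw [Finset.sum_comm]
    refine Finset.sum_congr rfl fun i _ => Finset.sum_congr rfl fun j _ => ?_
    show _ * ((ν : F) * ω _ _) * _ = _
    ring
  have hA0 : B0.IsAlt := fun x => Subtype.ext (by rw [hB0]; simp)
  have hN0 : Cfsg.Lib.Classical.NondegOn B0 ⊤ := by
    intro w _ hw0
    by_contra! hall
    have hw' : a.1 *ᵥ ι' w ≠ 0 := Cfsg.Lib.Classical.mulVec_ne_zero a fun e => hw0 (funext fun i =>
      Subtype.ext (congrFun e i))
    obtain ⟨z, hz⟩ := exists_eq_one hw'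
    rw [← Cfsg.Lib.Classical.mulVec_inv_mulVec a z, pi_eq_sum_univ' ((a⁻¹).1 *ᵥ z)] at hz
    simp only [mulVec_sum, mulVec_smul, map_sum, map_smul, LinearMap.sum_apply, LinearMap.smul_apply] at hz
    rw [Finset.sum_eq_zero (fun i _ => ?_)] at hz
    · exact zero_ne_one hz
    have e := congrArg Subtype.val (hall (Pi.single i 1) Submodule.mem_top)
    rw [hB0, show ι' (Pi.single i (1 : K)) = Pi.single i (1 : F) by
      funext l; by_cases hl : l = i <;> simp [ι', hl]] at e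
    rw [swap (a.1 *ᵥ ι' w), ((mul_eq_zero.1 (e.trans (ZeroMemClass.coe_zero K))).resolve_left ν.ne_zero), neg_zero,
      smul_zero]
  obtain ⟨u, w, -, huw⟩ := exists_symp_family B0 hA0 m ⊤ hN0 (by
    rw [finrank_top, Module.finrank_fintype_fun_eq_card, Fintype.card_sum, Fintype.card_fin]; omega)
  let Kc : Fin m ⊕ Fin m → V := Sum.elim (fun i => ι' (u i)) (fun i => ι' (w i))
  let K0 : Matrix (Fin m ⊕ Fin m) (Fin m ⊕ Fin m) F := Matrix.of fun l k => Kc k l
  let bM : Matrix (Fin m ⊕ Fin m) (Fin m ⊕ Fin m) F := a.1 * K0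
  have hbcol : ∀ k, bM *ᵥ Pi.single k 1 = a.1 *ᵥ Kc k := fun k => by
    show (a.1 * K0) *ᵥ _ = _
    rw [← mulVec_mulVec]
    congr 1
    funext l; simp [K0]
  have hval : ∀ i j, ω (bM *ᵥ Pi.single i 1) (bM *ᵥ Pi.single j 1) =
      (ν : F)⁻¹ * ω (Pi.single i 1) (Pi.single j 1) := by
    have key : ∀ x y, ω (a.1 *ᵥ ι' x) (a.1 *ᵥ ι' y) = (ν : F)⁻¹ * ((B0 x y : K) : F) := fun x y => by
      rw [hB0, inv_mul_cancel_left₀ ν.ne_zero]
    intro i j
    rw [hbcol, hbcol]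
    rcases i with i | i <;> rcases j with j | j <;> simp only [Kc, Sum.elim_inl, Sum.elim_inr, key] <;> congr 1
    · rw [(huw i j).1]; simp [omega_e]
    · rw [show B0 (u i) (w j) = -B0 (w j) (u i) from Cfsg.Lib.Classical.alt_swap hA0 _ _, (huw j i).2.2]
      by_cases hij : i = j
      · subst hij; simp [omega_f]
      · simp [omega_f, hij, Ne.symm hij]
    · rw [(huw i j).2.2]
      by_cases hij : i = j
      · subst hij; simp [omega_e]
      · simp [omega_e, hij, Ne.symm hij]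
    · rw [(huw i j).2.1]; simp [omega_f]
  have hiso : ∀ x y, ω (bM *ᵥ x) (bM *ᵥ y) = (ν : F)⁻¹ * ω x y := fun x y => by
    conv_lhs => rw [pi_eq_sum_univ' x, pi_eq_sum_univ' y]
    conv_rhs => rw [pi_eq_sum_univ' x, pi_eq_sum_univ' y]
    simp only [mulVec_sum, mulVec_smul, map_sum, map_smul, LinearMap.sum_apply, LinearMap.smul_apply, hval,
      Finset.mul_sum, smul_eq_mul]
    refine Finset.sum_congr rfl fun k _ => Finset.sum_congr rfl fun l _ => ?_
    ring
  have hdet : bM.det ≠ 0 := by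
    intro hd
    obtain ⟨x, hx, hbx⟩ := Matrix.exists_mulVec_eq_zero_iff.2 hd
    obtain ⟨z, hz⟩ := exists_eq_one hx
    have := hiso z x
    rw [hbx, map_zero, hz, mul_one] at this
    exact inv_ne_zero ν.ne_zero this.symm
  let b : Cfsg.GSp m F := ⟨Matrix.GeneralLinearGroup.mkOfDetNeZero bM hdet,
    mem_GSp_iff.2 ⟨ν⁻¹, fun x y => by rw [Units.val_inv_eq_inv_val]; exact hiso x y⟩⟩
  refine ⟨b, ?_⟩
  have hb : g' * mapG σ b = b := Subtype.ext (Units.ext (by
    show g'.1.1 * bM.map (σ : F →+* F) = bM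
    rw [show bM = a.1 * K0 from rfl, Matrix.map_mul, ← Matrix.mul_assoc]
    have hK : K0.map (σ : F →+* F) = K0 := by
      ext l k
      show σ (K0 l k) = K0 l k
      rcases k with k | k
      exacts [mem_fixed.1 (u k l).2, mem_fixed.1 (w k l).2]
    rw [hK]
    exact congrArg (· * K0) ha))
  have e : conjP g = conjP g' := by
    rw [show g' = sc μ * g from rfl, map_mul, conjP_sc, one_mul]
  rw [e, eq_mul_inv_iff_mul_eq, mul_assoc, frobP_conjP, ← mul_assoc, ← map_mul, hb]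

theorem field_commute (hm : 2 ≤ m) {σ : F ≃+* F} {r : ℕ} (hr : orderOf σ = r) {g : Cfsg.GSp m F}
    (h : (conjP g * frobP σ : MulAut PS) = frobP σ * conjP g) :
    ∃ μ : Fˣ, ∀ i j, σ ((μ : F) * g.1.1 i j) = (μ : F) * g.1.1 i j := by
  rw [frobP_conjP, mul_left_inj] at h
  obtain ⟨c, hc⟩ := (conjP_eq_one_iff hm).1 (show conjP (g⁻¹ * mapG σ g) = 1 by
    rw [map_mul, map_inv, ← h, inv_mul_cancel])
  rw [inv_mul_eq_iff_eq_mul] at hc
  have hσg : ∀ i j, σ (g.1.1 i j) = g.1.1 i j * c := by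
    intro i j
    have e := congrArg (fun m' : Cfsg.GSp m F => m'.1.1 i j) hc
    simp only [coe_mapG, Matrix.map_apply] at e
    rw [e]
    show ((g.1.1 * (sc (m := m) c).1.1 : Matrix (Fin m ⊕ Fin m) (Fin m ⊕ Fin m) F)) i j = _
    rw [coe_sc, mul_smul_comm, mul_one, Matrix.smul_apply, smul_eq_mul, mul_comm]
  have hit : ∀ k i j, (σ ^ k) (g.1.1 i j) = g.1.1 i j * ∏ l ∈ Finset.range k, (σ ^ l) (c : F) := by
    intro k
    induction k with
    | zero => intro i j; simp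
    | succ k ih =>
      intro i j
      rw [pow_succ', RingAut.mul_apply, ih, map_mul, hσg, map_prod, Finset.prod_range_succ']
      simp only [pow_succ', RingAut.mul_apply, pow_zero, RingAut.one_apply]
      ring
  have hN : nrm σ r c = 1 := by
    let o : Fin m ⊕ Fin m := Sum.inl ⟨0, by omega⟩
    obtain ⟨i, hi⟩ : ∃ i, g.1.1 i o ≠ 0 := by
      by_contra hh
      push Not at hh
      exact Cfsg.Lib.Classical.mulVec_ne_zero g.1 (x := Pi.single o 1) (by simp) (funext fun k => by simp [hh])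
    have e := hit r i o
    rw [← hr, pow_orderOf_eq_one, RingAut.one_apply, hr] at e
    refine Units.ext ?_
    rw [coe_nrm, Units.val_one]
    exact mul_left_cancel₀ hi (e.symm.trans (mul_one _).symm)
  obtain ⟨μ, hμ⟩ := hilbert90 σ hr (hr ▸ orderOf_pos σ) hN
  refine ⟨μ, fun i j => ?_⟩
  rw [map_mul, hσg]
  linear_combination g.1.1 i j * hμ

omit [Fintype F] in
theorem gcd_two_div {q0 r : ℕ} (hq : 2 ≤ q0) (hr : 0 < r) :
    Nat.gcd 2 ((q0 ^ r - 1) / (q0 - 1)) = Nat.gcd (Nat.gcd 2 (q0 ^ r - 1)) r := by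
  have hdvd : q0 - 1 ∣ q0 ^ r - 1 := by simpa using Nat.sub_dvd_pow_sub_pow q0 1 r
  rcases Nat.even_or_odd q0 with he | ho
  · have h1 : Odd (q0 ^ r - 1) := by
      rw [Nat.odd_sub (Nat.one_le_pow _ _ (by omega))]
      simp [Nat.even_pow, he, hr.ne']
    have h2 : Odd ((q0 ^ r - 1) / (q0 - 1)) := h1.of_dvd_nat (Nat.div_dvd_of_dvd hdvd)
    rw [Nat.coprime_iff_gcd_eq_one.1 (Nat.coprime_two_left.2 h2),
      Nat.coprime_iff_gcd_eq_one.1 (Nat.coprime_two_left.2 h1), Nat.gcd_one_left]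
  · have h1 : 2 ∣ q0 ^ r - 1 := (Nat.Odd.sub_odd (ho.pow) odd_one).two_dvd
    rw [Nat.gcd_eq_left h1, ← Nat.geomSum_eq hq, Nat.gcd_comm 2 r, Nat.gcd_comm 2]
    have h3 : ∀ k, (∑ i ∈ Finset.range k, q0 ^ i) % 2 = k % 2 := by
      intro k
      induction k with
      | zero => simp
      | succ k ih => rw [Finset.sum_range_succ, Nat.add_mod, ih, Nat.odd_iff.1 ho.pow]; omega
    rw [Nat.gcd_comm r 2, Nat.gcd_comm _ 2, Nat.gcd_rec, h3, ← Nat.gcd_rec]

omit [Fintype F] in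
theorem splitClassCount_conj {X : Type*} [Group X] (H K : Subgroup X) (α x : X)
    (hH : ∀ h, h ∈ H ↔ α * h * α⁻¹ ∈ H) (hK : ∀ h, h ∈ K ↔ α * h * α⁻¹ ∈ K) :
    splitClassCount H K (α * x * α⁻¹) = splitClassCount H K x := by
  have tr : ∀ (L : Subgroup X) (_ : ∀ h, h ∈ L ↔ α * h * α⁻¹ ∈ L) (y z : X),
      IsConjUnder L y z ↔ IsConjUnder L (α * y * α⁻¹) (α * z * α⁻¹) := by
    intro L hL y z
    constructor
    · rintro ⟨h, hh, rfl⟩; exact ⟨α * h * α⁻¹, (hL h).1 hh, by group⟩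
    · rintro ⟨h, hh, e⟩
      refine ⟨α⁻¹ * h * α, (hL _).2 (by rwa [show α * (α⁻¹ * h * α) * α⁻¹ = h by group]), ?_⟩
      calc z = α⁻¹ * (α * z * α⁻¹) * α := by group
        _ = _ := by rw [e]; group
  exact (Nat.card_congr (Quot.congr ((MulAut.conj α).toEquiv.subtypeEquiv fun y => tr H hH x y)
    (fun y z => tr K hK y.1 z.1))).symm

theorem conj_iff (hm : 2 ≤ m) (α h : MulAut PS) : h ∈ inndiagPSp m F ↔ α * h * α⁻¹ ∈ inndiagPSp m F := by
  refine ⟨inndiag_conj hm α h, fun hh => ?_⟩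
  have := inndiag_conj hm α⁻¹ _ hh
  rwa [show α⁻¹ * (α * h * α⁻¹) * α⁻¹⁻¹ = h by group] at this

/-- **Elements of prime order in a coset of a field automorphism.** -/
theorem order_iff_conj (hm : 2 ≤ m) {x δ : MulAut PS} (hx : IsFieldAutClassPSp x) {r : ℕ}
    (hxr : orderOf x = r) (hδ : δ ∈ inndiagPSp m F) :
    orderOf (δ * x) = r ↔ IsConjUnder (inndiagPSp m F) x (δ * x) := by
  constructor
  · intro h
    obtain ⟨α, σ, -, hα⟩ := hx
    have hα' : α * x * α⁻¹ = frobP σ := isStdField_iff.1 hα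
    have hσr : orderOf σ = r := by
      rw [← orderOf_frobP hm σ, ← hα', ← hxr]
      exact orderOf_injective (MulAut.conj α).toMonoidHom (MulAut.conj α).injective x
    obtain ⟨d, hd⟩ := (inndiag_eq (m := m) (F := F)) ▸ inndiag_conj hm α δ hδ
    have e : α * (δ * x) * α⁻¹ = conjP d * frobP σ := by rw [hd, ← hα']; group
    obtain ⟨b, hb⟩ := field_conj hm hσr d (by
      rw [← e, conj_pow, ← h, pow_orderOf_eq_one, mul_one, mul_inv_cancel])
    refine ⟨α⁻¹ * conjP b * α, ?_, ?_⟩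
    · have := inndiag_conj hm α⁻¹ (conjP b) (by rw [inndiag_eq]; exact ⟨b, rfl⟩)
      rwa [inv_inv] at this
    · calc δ * x = α⁻¹ * (α * (δ * x) * α⁻¹) * α := by group
        _ = _ := by rw [e, hb, ← hα']; group
  · rintro ⟨k, -, hk⟩
    rw [hk]
    exact (orderOf_injective (MulAut.conj k).toMonoidHom (MulAut.conj k).injective x).trans hxr

theorem field_main {p f : ℕ} [Fact p.Prime] (hF : Fintype.card F = p ^ f) (hm : 2 ≤ m)
    {x : MulAut PS} (hx : IsFieldAutClassPSp x) {r : ℕ} (hxr : orderOf x = r) {F₀ : Type*} [Field F₀]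
    [Fintype F₀] (hF₀ : Fintype.card F₀ = p ^ (f / r)) :
    r ∣ f ∧ Nonempty (↥(inndiagPSp m F ⊓ Subgroup.centralizer {x}) ≃* Cfsg.PGSp m F₀) ∧
      splitClassCount (inndiagPSp m F) (Cfsg.Inn PS) x = Nat.gcd (Nat.gcd 2 (p ^ f - 1)) r := by
  have h0 : 0 < m := by omega
  obtain ⟨α, σ, -, hα⟩ := hx
  have hα' : α * x * α⁻¹ = frobP σ := isStdField_iff.1 hα
  have hσr : orderOf σ = r := by
    rw [← orderOf_frobP hm σ, ← hα', ← hxr]
    exact orderOf_injective (MulAut.conj α).toMonoidHom (MulAut.conj α).injective x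
  obtain ⟨hdvd, hcard⟩ := fixed_card_eq hF σ
  rw [hσr] at hdvd hcard
  let _ : Fintype (fixed σ) := Fintype.ofFinite _
  let e : F₀ ≃+* fixed σ := FiniteField.ringEquivOfCardEq
    (by rw [hF₀, ← hcard, Nat.card_eq_fintype_card])
  let ι : F₀ →+* F := (fixed σ).subtype.comp (e : F₀ →+* fixed σ)
  have hι : Function.Injective ι := Subtype.val_injective.comp e.injective
  have hfixι : ∀ z, σ (ι z) = ι z := fun z => mem_fixed.1 (e z).2
  have hsur : ∀ y, σ y = y → ∃ z, ι z = y := fun y hy =>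
    ⟨e.symm ⟨y, mem_fixed.2 hy⟩, congrArg Subtype.val (e.apply_symm_apply _)⟩
  have hform : ∀ u v : Fin m ⊕ Fin m → F₀, ω (fun i => ι (u i)) (fun i => ι (v i)) = ι (sympBilin F₀ m u v) := by
    intro u v
    rw [sympBilin_apply, sympBilin_apply, sympForm_eq_sum, sympForm_eq_sum, map_sum]
    simp
  have hmapv : ∀ (M : Matrix (Fin m ⊕ Fin m) (Fin m ⊕ Fin m) F₀) (u : Fin m ⊕ Fin m → F₀),
      (fun i => ι ((M *ᵥ u) i)) = M.map ι *ᵥ fun i => ι (u i) := fun M u =>
    funext fun i => RingHom.map_mulVec ι M u i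
  have hsgl : ∀ k, (fun i => ι ((Pi.single k (1 : F₀) : _ → F₀) i)) = (Pi.single k 1 : V) := fun k => by
    funext i; by_cases hi : i = k <;> simp [hi]
  let mapι : Cfsg.GSp m F₀ →* Cfsg.GSp m F :=
    ((Matrix.GeneralLinearGroup.map ι).comp (Cfsg.GSp m F₀).subtype).codRestrict _ fun g0 => by
      obtain ⟨μ0, hμ0⟩ := mem_GSp_iff.1 g0.2
      refine mem_GSp_of_basis _ (Units.map (ι : F₀ →* F) μ0) fun a b => ?_
      show ω (g0.1.1.map ι *ᵥ _) (g0.1.1.map ι *ᵥ _) = ι (μ0 : F₀) * _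
      rw [← hsgl a, ← hsgl b, ← hmapv, ← hmapv, hform, hform, hμ0, map_mul]
  have hmap : ∀ g0, mapG σ (mapι g0) = mapι g0 := fun g0 =>
    Subtype.ext (Units.ext (Matrix.ext fun i j => hfixι _))
  have hsurj : ∀ g : Cfsg.GSp m F, (conjP g * frobP σ : MulAut PS) = frobP σ * conjP g →
      ∃ (μ : Fˣ) (g0 : Cfsg.GSp m F₀), mapι g0 = sc μ * g := by
    intro g hg
    obtain ⟨μ, hμ⟩ := field_commute hm hσr hg
    choose z hz using fun i j => hsur _ (hμ i j)
    let M0 : Matrix (Fin m ⊕ Fin m) (Fin m ⊕ Fin m) F₀ := Matrix.of z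
    have hM : M0.map ι = (sc μ * g : Cfsg.GSp m F).1.1 := by
      ext i j
      show ι (z i j) = (((sc (m := m) μ).1.1 * g.1.1 : Matrix (Fin m ⊕ Fin m) (Fin m ⊕ Fin m) F)) i j
      rw [coe_sc, smul_mul_assoc, one_mul, hz]
      rfl
    have hdet : M0.det ≠ 0 := fun h0' => by
      have := congrArg Matrix.det hM
      rw [← RingHom.mapMatrix_apply, ← RingHom.map_det, h0', map_zero] at this
      exact (Matrix.GeneralLinearGroup.det (sc μ * g : Cfsg.GSp m F).1).ne_zero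
        (by rw [Matrix.GeneralLinearGroup.val_det_apply]; exact this.symm)
    set ν := mult h0 (sc μ * g)
    have hkey : ∀ x y : Fin m ⊕ Fin m → F₀, ι (sympBilin F₀ m (M0 *ᵥ x) (M0 *ᵥ y)) = ν * ι (sympBilin F₀ m x y) := by
      intro x y
      rw [← hform, ← hform, hmapv, hmapv, hM, mult_spec h0 (sc μ * g)]
    set z0 := sympBilin F₀ m (M0 *ᵥ fB ⟨0, h0⟩) (M0 *ᵥ eB ⟨0, h0⟩)
    have hz0 : (ν : F) = ι z0 := by
      rw [hkey, omega_pair, map_one, mul_one]
    have hz1 : z0 ≠ 0 := fun e0 => ν.ne_zero (by rw [hz0, e0, map_zero])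
    exact ⟨μ, ⟨Matrix.GeneralLinearGroup.mkOfDetNeZero M0 hdet, mem_GSp_iff.2 ⟨Units.mk0 z0 hz1, fun x y =>
      hι (by rw [map_mul]; show ι (sympBilin F₀ m (M0 *ᵥ x) (M0 *ᵥ y)) = _; rw [hkey, hz0]; rfl)⟩⟩,
      Subtype.ext (Units.ext hM)⟩
  let Φ : Cfsg.GSp m F₀ →* MulAut PS := (MulAut.conj α⁻¹).toMonoidHom.comp (conjP.comp mapι)
  have hΦ : ∀ g0, conjP (mapι g0) * frobP σ = frobP σ * (conjP (mapι g0) : MulAut PS) := fun g0 => by
    rw [frobP_conjP, hmap]
  have hrange : Φ.range = inndiagPSp m F ⊓ Subgroup.centralizer {x} := by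
    ext y
    constructor
    · rintro ⟨g0, rfl⟩
      refine ⟨inndiag_conj hm α⁻¹ _ (by rw [inndiag_eq]; exact ⟨_, rfl⟩), Subgroup.mem_centralizer_singleton_iff.2 ?_⟩
      show α⁻¹ * conjP (mapι g0) * α⁻¹⁻¹ * x = x * (α⁻¹ * conjP (mapι g0) * α⁻¹⁻¹)
      calc α⁻¹ * conjP (mapι g0) * α⁻¹⁻¹ * x = α⁻¹ * (conjP (mapι g0) * (α * x * α⁻¹)) * α := by group
        _ = α⁻¹ * ((α * x * α⁻¹) * conjP (mapι g0)) * α := by rw [hα', hΦ]
        _ = _ := by group
    · rintro ⟨hG, hC⟩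
      have hC' := Subgroup.mem_centralizer_singleton_iff.1 hC
      obtain ⟨g, hg⟩ := (inndiag_eq (m := m) (F := F)) ▸ inndiag_conj hm α y hG
      obtain ⟨μ, g0, hg0⟩ := hsurj g (by
        rw [hg, ← hα']
        calc α * y * α⁻¹ * (α * x * α⁻¹) = α * (y * x) * α⁻¹ := by group
          _ = α * (x * y) * α⁻¹ := by rw [hC']
          _ = _ := by group)
      refine ⟨g0, ?_⟩
      show α⁻¹ * conjP (mapι g0) * α⁻¹⁻¹ = y
      rw [hg0, map_mul, conjP_sc, one_mul, hg]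
      group
  have hker : Φ.ker = (Geo.scalars (Fin m ⊕ Fin m) F₀).subgroupOf (Cfsg.GSp m F₀) := by
    ext g0
    rw [MonoidHom.mem_ker, Subgroup.mem_subgroupOf,
      show Φ g0 = 1 ↔ conjP (mapι g0) = 1 from map_eq_one_iff _ (MulAut.conj α⁻¹).injective, conjP_eq_one_iff hm]
    constructor
    · rintro ⟨c, hc⟩
      have hc' : ∀ i j, ι (g0.1.1 i j) = if i = j then (c : F) else 0 := fun i j => by
        have e := congrArg (fun g : Cfsg.GSp m F => g.1.1 i j) hc
        simp only [coe_sc] at e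
        rw [Matrix.smul_apply, Matrix.one_apply, smul_eq_mul, mul_ite, mul_one, mul_zero] at e
        exact e
      let i0 : Fin m ⊕ Fin m := Sum.inl ⟨0, h0⟩
      have hne : g0.1.1 i0 i0 ≠ 0 := fun e0 => c.ne_zero (by
        have := hc' i0 i0
        rwa [e0, map_zero, if_pos rfl, eq_comm] at this)
      show g0.1 ∈ (Matrix.GeneralLinearGroup.scalar (Fin m ⊕ Fin m) (R := F₀)).range
      refine ⟨Units.mk0 _ hne, Units.ext (Matrix.ext fun i j => hι ?_)⟩
      show ι ((Matrix.scalar (Fin m ⊕ Fin m) (g0.1.1 i0 i0)) i j) = _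
      rw [scalar_apply, Matrix.diagonal_apply, hc' i j]
      split_ifs <;> simp [hc' i0 i0]
    · rintro ⟨c, hc⟩
      refine ⟨Units.map (ι : F₀ →* F) c, Subtype.ext (Units.ext ?_)⟩
      show g0.1.1.map ι = Matrix.scalar (Fin m ⊕ Fin m) (ι c)
      rw [← hc]
      show (Matrix.scalar (Fin m ⊕ Fin m) (c : F₀)).map ι = _
      rw [scalar_apply, scalar_apply, diagonal_map (map_zero ι)]
  refine ⟨hdvd, ⟨(MulEquiv.subgroupCongr hrange.symm).trans
    ((QuotientGroup.quotientKerEquivRange Φ).symm.trans (QuotientGroup.quotientMulEquivOfEq hker))⟩, ?_⟩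
  -- class splitting
  rw [show x = α⁻¹ * frobP σ * α⁻¹⁻¹ by rw [← hα']; group,
    splitClassCount_conj _ _ α⁻¹ _ (conj_iff hm α⁻¹) (fun h => ⟨Inn_conj α⁻¹ h, fun hh => by
      have := Inn_conj α _ hh
      rwa [show α * (α⁻¹ * h * α⁻¹⁻¹) * α⁻¹ = h by group] at this⟩)]
  let K0 : Subgroup Fˣ := (Units.map (ι : F₀ →* F)).range
  set M' := (powMonoidHom 2 : Fˣ →* Fˣ).range ⊔ K0
  rw [inndiag_eq, splitClassCount_eq (Q := Fˣ ⧸ M') conjP (Cfsg.Inn PS) (frobP σ)
    ((QuotientGroup.mk' M').comp (mult h0)) ?_ ?_ ?_ (inn_le hm) (fun a k hk => Inn_conj _ k hk) ?_]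
  · rw [← Subgroup.index, index_pow_sup]
    have h1 := K0.card_mul_index
    rw [show Nat.card K0 = p ^ (f / r) - 1 by
        rw [← hF₀, ← Nat.card_eq_fintype_card, ← Nat.card_units]
        exact Nat.card_congr (MonoidHom.ofInjective (Units.map_injective hι)).toEquiv.symm,
      Nat.card_units, Nat.card_eq_fintype_card, hF] at h1
    have h2 : 1 < p ^ (f / r) := hF₀ ▸ Fintype.one_lt_card
    have hr0 : 0 < r := hσr ▸ orderOf_pos σ
    have h3 : (p ^ (f / r)) ^ r = p ^ f := by rw [← pow_mul, Nat.div_mul_cancel hdvd]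
    rw [← h3, ← gcd_two_div h2 hr0, h3, ← h1, Nat.mul_div_cancel_left _ (by omega)]
  · intro q
    obtain ⟨w, rfl⟩ := QuotientGroup.mk_surjective q
    let Dv : Fin m ⊕ Fin m → F := Sum.elim (fun _ => (w : F)) fun _ => 1
    refine ⟨⟨Matrix.GeneralLinearGroup.mkOfDetNeZero (Matrix.diagonal Dv) ?_, mem_GSp_iff.2 ⟨w, ?_⟩⟩, ?_⟩
    · rw [det_diagonal]
      refine Finset.prod_ne_zero_iff.2 fun i _ => ?_
      rcases i with i | i <;> simp [Dv]
    · intro x y
      show ω (Matrix.diagonal Dv *ᵥ x) (Matrix.diagonal Dv *ᵥ y) = _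
      rw [sympBilin_apply, sympBilin_apply, sympForm_eq_sum, sympForm_eq_sum, Finset.mul_sum]
      refine Finset.sum_congr rfl fun i _ => ?_
      simp only [mulVec_diagonal, Dv, Sum.elim_inl, Sum.elim_inr]
      ring
    · rw [MonoidHom.comp_apply, QuotientGroup.mk'_apply]
      refine congrArg _ (Units.ext (mult_eq h0 _ fun x y => ?_))
      show ω (Matrix.diagonal Dv *ᵥ x) (Matrix.diagonal Dv *ᵥ y) = _
      rw [sympBilin_apply, sympBilin_apply, sympForm_eq_sum, sympForm_eq_sum, Finset.mul_sum]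
      refine Finset.sum_congr rfl fun i _ => ?_
      simp only [mulVec_diagonal, Dv, Sum.elim_inl, Sum.elim_inr]
      ring
  · intro g hg
    rw [MonoidHom.comp_apply, QuotientGroup.mk'_apply, QuotientGroup.eq_one_iff]
    obtain ⟨μ, g0, hg0⟩ := hsurj g hg
    have e1 : mult h0 g = (μ * μ)⁻¹ * mult h0 (mapι g0) := by
      rw [hg0, map_mul, mult_sc, inv_mul_cancel_left]
    rw [e1]
    refine mul_mem (Subgroup.mem_sup_left ⟨μ⁻¹, by simp [pow_two]⟩) (Subgroup.mem_sup_right ⟨mult h0 g0, ?_⟩)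
    refine Units.ext ?_
    refine (mult_eq h0 (mapι g0) (μ := ι (mult h0 g0 : F₀)) fun x y => ?_).symm
    obtain ⟨μ', hμ'⟩ := mem_GSp_iff.1 (mapι g0).2
    have e2 := hμ' (fB ⟨0, h0⟩) (eB ⟨0, h0⟩)
    rw [omega_pair, mul_one, fB, eB, ← hsgl, ← hsgl] at e2
    change ω (g0.1.1.map ι *ᵥ _) (g0.1.1.map ι *ᵥ _) = _ at e2
    rw [← hmapv, ← hmapv, hform, mult_spec h0 g0] at e2
    rw [hμ', ← e2, show sympBilin F₀ m (Pi.single (Sum.inr ⟨0, h0⟩) 1) (Pi.single (Sum.inl ⟨0, h0⟩) 1) = 1 from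
      omega_pair _, mul_one]
  · intro g hg
    rw [MonoidHom.comp_apply, QuotientGroup.mk'_apply, QuotientGroup.eq_one_iff]
    obtain ⟨u, hu⟩ := (conjP_mem_Inn_iff hm g).1 hg
    rw [hu]
    exact Subgroup.mem_sup_left ⟨u, by simp [pow_two]⟩
  · intro g hg
    rw [MonoidHom.comp_apply, QuotientGroup.mk'_apply, QuotientGroup.eq_one_iff] at hg
    obtain ⟨_, ⟨u, rfl⟩, w, ⟨w0, rfl⟩, e1⟩ := Subgroup.mem_sup.1 hg
    let Dv : Fin m ⊕ Fin m → F₀ := Sum.elim (fun _ => (w0 : F₀)) fun _ => 1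
    have hmem : ∀ x y, sympBilin F₀ m (Matrix.diagonal Dv *ᵥ x) (Matrix.diagonal Dv *ᵥ y) =
        (w0 : F₀) * sympBilin F₀ m x y := by
      intro x y
      rw [sympBilin_apply, sympBilin_apply, sympForm_eq_sum, sympForm_eq_sum, Finset.mul_sum]
      refine Finset.sum_congr rfl fun i _ => ?_
      simp only [mulVec_diagonal, Dv, Sum.elim_inl, Sum.elim_inr]
      ring
    let c0 : Cfsg.GSp m F₀ := ⟨Matrix.GeneralLinearGroup.mkOfDetNeZero (Matrix.diagonal Dv) (by
      rw [det_diagonal]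
      refine Finset.prod_ne_zero_iff.2 fun i _ => ?_
      rcases i with i | i <;> simp [Dv]), mem_GSp_iff.2 ⟨w0, hmem⟩⟩
    refine ⟨g * (mapι c0)⁻¹, mapι c0, (conjP_mem_Inn_iff hm _).2 ⟨u, ?_⟩, hΦ c0, ?_⟩
    · have e3 : mult h0 (mapι c0) = Units.map (ι : F₀ →* F) w0 := by
        obtain ⟨μ', hμ'⟩ := mem_GSp_iff.1 (mapι c0).2
        have e2 := hμ' (fB ⟨0, h0⟩) (eB ⟨0, h0⟩)
        rw [omega_pair, mul_one, fB, eB, ← hsgl, ← hsgl] at e2
        change ω ((Matrix.diagonal Dv).map ι *ᵥ _) ((Matrix.diagonal Dv).map ι *ᵥ _) = _ at e2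
        rw [← hmapv, ← hmapv, hform, hmem, show sympBilin F₀ m (Pi.single (Sum.inr ⟨0, h0⟩) 1)
          (Pi.single (Sum.inl ⟨0, h0⟩) 1) = 1 from omega_pair _, mul_one] at e2
        exact Units.ext ((mult_eq h0 _ hμ').trans e2.symm)
      rw [map_mul, map_inv, e3, ← e1, powMonoidHom_apply, pow_two, mul_inv_cancel_right]
    · rw [← map_mul, inv_mul_cancel_right]

end Cfsg.Lib.Classical.PSpAut
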