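/-
The exceptional automorphism of `PSp_4(2^f)` and the order of `Aut(PSp_{2m}(F))`.
-/
import Mathlib
import Cfsg.Agent.Lib.Classical.PSpAut.Kernel
import Cfsg.Agent.S0270
import Cfsg.Agent.Lib.Classical.PSLAut.Field

set_option autoImplicit false

open scoped Classical

namespace Cfsg.Lib.Classical.PSpAut

open Matrix
open Cfsg.Lib.Classical (sympBilin sympBilin_apply sympBilin_isAlt sympForm_eq_sum)
open scoped MatrixGroups

variable {F : Type*} [Field F]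

set_option quotPrecheck false in
local notation "V2" => (Fin 2 ⊕ Fin 2 → F)
set_option quotPrecheck false in
local notation "Sp4" => (↥(Matrix.symplecticGroup (Fin 2) F))

/-- The pairs of basis vectors indexing the new basis. -/
def pr : Fin 2 ⊕ Fin 2 → (Fin 2 ⊕ Fin 2) × (Fin 2 ⊕ Fin 2) :=
  Sum.elim ![(Sum.inl 0, Sum.inl 1), (Sum.inl 0, Sum.inr 1)] ![(Sum.inr 0, Sum.inr 1), (Sum.inr 0, Sum.inl 1)]

/-- The matrix of two by two minors. -/
def phiM (g : Matrix (Fin 2 ⊕ Fin 2) (Fin 2 ⊕ Fin 2) F) : Matrix (Fin 2 ⊕ Fin 2) (Fin 2 ⊕ Fin 2) F :=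
  Matrix.of fun a b => g (pr a).1 (pr b).1 * g (pr a).2 (pr b).2 + g (pr a).1 (pr b).2 * g (pr a).2 (pr b).1

theorem phiM_one : phiM (1 : Matrix (Fin 2 ⊕ Fin 2) (Fin 2 ⊕ Fin 2) F) = 1 := by
  ext a b
  rcases a with a | a <;> rcases b with b | b <;> fin_cases a <;> fin_cases b <;>
    simp [phiM, pr, Matrix.one_apply]

variable [CharP F 2]

theorem minor_rel (A : Sp4) (a : Fin 2 ⊕ Fin 2) :
    A.1 (Sum.inl 0) (pr a).1 * A.1 (Sum.inr 0) (pr a).2 + A.1 (Sum.inr 0) (pr a).1 * A.1 (Sum.inl 0) (pr a).2 +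
      (A.1 (Sum.inl 1) (pr a).1 * A.1 (Sum.inr 1) (pr a).2 + A.1 (Sum.inr 1) (pr a).1 * A.1 (Sum.inl 1) (pr a).2) =
      0 := by
  have h := iso A (Pi.single (pr a).1 1) (Pi.single (pr a).2 1)
  rw [sympBilin_apply, sympBilin_apply, sympForm_eq_sum, sympForm_eq_sum, Fin.sum_univ_two, Fin.sum_univ_two,
    mulVec_single_one, mulVec_single_one] at h
  simp only [col_apply, CharTwo.sub_eq_add] at h
  have h' : ∀ a : Fin 2 ⊕ Fin 2, ((Pi.single (pr a).1 1 : V2) (Sum.inr 0) * (Pi.single (pr a).2 1 : V2) (Sum.inl 0) +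
      (Pi.single (pr a).1 1 : V2) (Sum.inl 0) * (Pi.single (pr a).2 1 : V2) (Sum.inr 0) +
      ((Pi.single (pr a).1 1 : V2) (Sum.inr 1) * (Pi.single (pr a).2 1 : V2) (Sum.inl 1) +
      (Pi.single (pr a).1 1 : V2) (Sum.inl 1) * (Pi.single (pr a).2 1 : V2) (Sum.inr 1))) = 0 := by
    intro a
    rcases a with a | a <;> fin_cases a <;> simp [pr]
  rw [h' a] at h
  linear_combination h

theorem phiM_mul (A B : Sp4) : phiM (A.1 * B.1) = phiM A.1 * phiM B.1 := by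
  ext a b
  have hA := minor_rel ⟨A.1ᵀ, SymplecticGroup.transpose_mem A.2⟩ a
  have hB := minor_rel B b
  simp only [transpose_apply] at hA
  have h2 : (2 : F) = 0 := CharTwo.two_eq_zero
  simp only [phiM, Matrix.of_apply, Matrix.mul_apply, Fintype.sum_sum_type, Fin.sum_univ_two, pr,
    Sum.elim_inl, Sum.elim_inr, Matrix.cons_val_zero, Matrix.cons_val_one]
  simp only [pr] at hA hB
  set a1 := (pr a).1
  set a2 := (pr a).2
  set b1 := (pr b).1
  set b2 := (pr b).2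
  simp only [show (Sum.elim ![((Sum.inl 0 : Fin 2 ⊕ Fin 2), (Sum.inl 1 : Fin 2 ⊕ Fin 2)), (Sum.inl 0, Sum.inr 1)]
      ![(Sum.inr 0, Sum.inr 1), (Sum.inr 0, Sum.inl 1)]) = pr from rfl] at hA hB ⊢
  have key : ∀ (g1 g2 h1 h2' : Fin 2 ⊕ Fin 2 → F),
      (g1 (Sum.inl 0) * h1 (Sum.inl 0) + g1 (Sum.inl 1) * h1 (Sum.inl 1) +
        (g1 (Sum.inr 0) * h1 (Sum.inr 0) + g1 (Sum.inr 1) * h1 (Sum.inr 1))) *
        (g2 (Sum.inl 0) * h2' (Sum.inl 0) + g2 (Sum.inl 1) * h2' (Sum.inl 1) +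
        (g2 (Sum.inr 0) * h2' (Sum.inr 0) + g2 (Sum.inr 1) * h2' (Sum.inr 1))) +
      (g1 (Sum.inl 0) * h2' (Sum.inl 0) + g1 (Sum.inl 1) * h2' (Sum.inl 1) +
        (g1 (Sum.inr 0) * h2' (Sum.inr 0) + g1 (Sum.inr 1) * h2' (Sum.inr 1))) *
        (g2 (Sum.inl 0) * h1 (Sum.inl 0) + g2 (Sum.inl 1) * h1 (Sum.inl 1) +
        (g2 (Sum.inr 0) * h1 (Sum.inr 0) + g2 (Sum.inr 1) * h1 (Sum.inr 1))) =
      (g1 (Sum.inl 0) * g2 (Sum.inl 1) + g1 (Sum.inl 1) * g2 (Sum.inl 0)) *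
          (h1 (Sum.inl 0) * h2' (Sum.inl 1) + h2' (Sum.inl 0) * h1 (Sum.inl 1)) +
        (g1 (Sum.inl 0) * g2 (Sum.inr 1) + g1 (Sum.inr 1) * g2 (Sum.inl 0)) *
          (h1 (Sum.inl 0) * h2' (Sum.inr 1) + h2' (Sum.inl 0) * h1 (Sum.inr 1)) +
        ((g1 (Sum.inr 0) * g2 (Sum.inr 1) + g1 (Sum.inr 1) * g2 (Sum.inr 0)) *
          (h1 (Sum.inr 0) * h2' (Sum.inr 1) + h2' (Sum.inr 0) * h1 (Sum.inr 1)) +
        (g1 (Sum.inr 0) * g2 (Sum.inl 1) + g1 (Sum.inl 1) * g2 (Sum.inr 0)) *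
          (h1 (Sum.inr 0) * h2' (Sum.inl 1) + h2' (Sum.inr 0) * h1 (Sum.inl 1))) +
        (g1 (Sum.inl 0) * g2 (Sum.inr 0) + g1 (Sum.inr 0) * g2 (Sum.inl 0)) *
          (h1 (Sum.inl 0) * h2' (Sum.inr 0) + h1 (Sum.inr 0) * h2' (Sum.inl 0)) +
        (g1 (Sum.inl 1) * g2 (Sum.inr 1) + g1 (Sum.inr 1) * g2 (Sum.inl 1)) *
          (h1 (Sum.inl 1) * h2' (Sum.inr 1) + h1 (Sum.inr 1) * h2' (Sum.inl 1)) := by
    intro g1 g2 h1 h2'
    linear_combination (g1 (Sum.inl 0) * g2 (Sum.inl 0) * h1 (Sum.inl 0) * h2' (Sum.inl 0) +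
      g1 (Sum.inl 1) * g2 (Sum.inl 1) * h1 (Sum.inl 1) * h2' (Sum.inl 1) +
      g1 (Sum.inr 0) * g2 (Sum.inr 0) * h1 (Sum.inr 0) * h2' (Sum.inr 0) +
      g1 (Sum.inr 1) * g2 (Sum.inr 1) * h1 (Sum.inr 1) * h2' (Sum.inr 1)) * h2
  have e1 : A.1 a1 (Sum.inl 0) * A.1 a2 (Sum.inr 0) + A.1 a1 (Sum.inr 0) * A.1 a2 (Sum.inl 0) =
      A.1 a1 (Sum.inl 1) * A.1 a2 (Sum.inr 1) + A.1 a1 (Sum.inr 1) * A.1 a2 (Sum.inl 1) :=
    CharTwo.add_eq_zero.1 hA
  have e2 : B.1 (Sum.inl 0) b1 * B.1 (Sum.inr 0) b2 + B.1 (Sum.inr 0) b1 * B.1 (Sum.inl 0) b2 =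
      B.1 (Sum.inl 1) b1 * B.1 (Sum.inr 1) b2 + B.1 (Sum.inr 1) b1 * B.1 (Sum.inl 1) b2 :=
    CharTwo.add_eq_zero.1 hB
  rw [key (A.1 a1) (A.1 a2) (fun k => B.1 k b1) (fun k => B.1 k b2), e1, e2, add_assoc, CharTwo.add_self_eq_zero,
    add_zero]

set_option maxHeartbeats 2000000 in
theorem phiM_tS_mem (v : V2) (c : F) (hv : v = eB 0 ∨ v = eB 1 ∨ v = fB 0 ∨ v = fB 1 ∨ v = eB 0 + eB 1) :
    phiM (tS v c).1 ∈ Matrix.symplecticGroup (Fin 2) F := by
  have hent : ∀ i j, (tS v c).1 i j = (1 : Matrix (Fin 2 ⊕ Fin 2) (Fin 2 ⊕ Fin 2) F) i j +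
      c * sympBilin F 2 (Pi.single j 1) v * v i := fun i j => by
    have h := congrFun (tS_mulVec v c (Pi.single j 1)) i
    rw [mulVec_single_one, col_apply] at h
    rw [h, Pi.add_apply, Pi.smul_apply, smul_eq_mul]
    by_cases hij : i = j <;> simp [Matrix.one_apply, hij]
  rw [SymplecticGroup.mem_iff]
  ext a b
  rcases hv with rfl | rfl | rfl | rfl | rfl <;>
    rcases a with a | a <;> rcases b with b | b <;> fin_cases a <;> fin_cases b <;>
    simp [Matrix.mul_apply, Fintype.sum_sum_type, Fin.sum_univ_two, phiM, pr, hent, Matrix.J, Matrix.one_apply,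
      omega_e, omega_f, eB, fB, map_add, CharTwo.neg_eq, CharTwo.add_self_eq_zero, CharTwo.sub_eq_add]

variable [Fintype F]

theorem phiM_mem (A : Sp4) : phiM A.1 ∈ Matrix.symplecticGroup (Fin 2) F := by
  let H : Subgroup Sp4 :=
    { carrier := {A | phiM A.1 ∈ Matrix.symplecticGroup (Fin 2) F}
      one_mem' := by
        show phiM ((1 : Sp4) : Matrix (Fin 2 ⊕ Fin 2) (Fin 2 ⊕ Fin 2) F) ∈ Matrix.symplecticGroup (Fin 2) F
        rw [OneMemClass.coe_one, phiM_one]; exact one_mem _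
      mul_mem' := fun {a b} ha hb => by
        show phiM (a.1 * b.1) ∈ Matrix.symplecticGroup (Fin 2) F
        rw [phiM_mul]; exact mul_mem ha hb
      inv_mem' := fun {a} ha => by
        show phiM (a⁻¹ : Sp4).1 ∈ Matrix.symplecticGroup (Fin 2) F
        have h : phiM (a⁻¹ : Sp4).1 * phiM a.1 = 1 := by
          rw [← phiM_mul, show (a⁻¹ : Sp4).1 * a.1 = 1 from congrArg Subtype.val (inv_mul_cancel a), phiM_one]
        have h' : phiM a.1 * ((⟨_, ha⟩ : Sp4)⁻¹).1 = 1 :=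
          congrArg Subtype.val (mul_inv_cancel (⟨_, ha⟩ : Sp4))
        rw [left_inv_eq_right_inv h h']
        exact ((⟨_, ha⟩ : Sp4)⁻¹).2 }
  have h := gen_top (m := 2) two_pos H (fun i c => by
      fin_cases i
      exacts [phiM_tS_mem _ c (Or.inl rfl), phiM_tS_mem _ c (Or.inr (Or.inl rfl))])
    (fun i c => by
      fin_cases i
      exacts [phiM_tS_mem _ c (Or.inr (Or.inr (Or.inl rfl))), phiM_tS_mem _ c (Or.inr (Or.inr (Or.inr (Or.inl rfl))))])
    (fun j hj c => by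
      fin_cases j
      · exact absurd rfl hj
      · exact phiM_tS_mem _ c (Or.inr (Or.inr (Or.inr (Or.inr rfl)))))
  exact (h ▸ Subgroup.mem_top A : A ∈ H)

/-- The exceptional endomorphism. -/
def phi : Sp4 →* Sp4 where
  toFun A := ⟨phiM A.1, phiM_mem A⟩
  map_one' := Subtype.ext phiM_one
  map_mul' A B := Subtype.ext (phiM_mul A B)

theorem phi_tS : phi (tS (eB 0 : V2) 1) = uQ (eB 0) (eB 1) := by
  refine ext_sp fun x => ?_
  have hent : ∀ i j, (tS (eB 0 : V2) 1).1 i j = (1 : Matrix (Fin 2 ⊕ Fin 2) (Fin 2 ⊕ Fin 2) F) i j +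
      1 * sympBilin F 2 (Pi.single j 1) (eB 0) * (eB 0 : V2) i := fun i j => by
    have h := congrFun (tS_mulVec (eB 0 : V2) 1 (Pi.single j 1)) i
    rw [mulVec_single_one, col_apply] at h
    rw [h, Pi.add_apply, Pi.smul_apply, smul_eq_mul]
    by_cases hij : i = j <;> simp [Matrix.one_apply, hij]
  rw [uQ_mulVec (by simp [omega_e, eB])]
  funext a
  show (phiM (tS (eB 0 : V2) 1).1 *ᵥ x) a = _
  rcases a with a | a <;> fin_cases a <;>
    simp [mulVec, dotProduct, Fintype.sum_sum_type, Fin.sum_univ_two, phiM, pr, hent, omega_e, eB, Matrix.one_apply]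

omit [Fintype F] in
theorem mk_injective (m : ℕ) (hm : 1 ≤ m) :
    Function.Injective (QuotientGroup.mk : ↥(Matrix.symplecticGroup (Fin m) F) → Cfsg.PSp m F) := by
  intro a b h
  obtain ⟨r, hr, hab⟩ := (mk_eq_iff hm).1 h
  have h4 : (r - 1) * (r - 1) = 0 := by linear_combination hr + (1 - r) * (CharTwo.two_eq_zero (R := F))
  rw [sub_eq_zero.1 (mul_self_eq_zero.1 h4), one_smul] at hab
  exact Subtype.ext hab.symm

/-- `Sp_4` as `PSp_4` in characteristic two. -/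
noncomputable def eC : Sp4 ≃* Cfsg.PSp 2 F :=
  MulEquiv.ofBijective (QuotientGroup.mk' _) ⟨mk_injective 2 one_le_two, QuotientGroup.mk'_surjective _⟩

theorem exotic_ne_P (m : ℕ) (hm : 2 ≤ m) {a b w : Fin m ⊕ Fin m → F} (hab : sympBilin F m b a = 0) (ha : a ≠ 0)
    (hb : b ∉ Submodule.span F {a}) (d : F) :
    (QuotientGroup.mk (uQ a b) : Cfsg.PSp m F) ≠ P w d := by
  intro h
  have e := mk_injective m (by omega) h
  obtain ⟨z, hz1, hz2⟩ := Cfsg.Lib.Classical.exists_sep (sympBilin F m) (sympBilin_isAlt F m)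
    (Cfsg.Lib.Classical.sympBilin_nondegenerate F m) hb
  obtain ⟨x, hx⟩ := exists_eq_one ha
  have e1 := congrArg (fun A : ↥(Matrix.symplecticGroup (Fin m) F) => A.1 *ᵥ z) e
  have e2 := congrArg (fun A : ↥(Matrix.symplecticGroup (Fin m) F) => A.1 *ᵥ x) e
  simp only [uQ_mulVec hab, tS_mulVec, swap a z, swap b z, hz1, hz2, hx, neg_zero, zero_smul, add_zero, neg_smul,
    one_smul, add_assoc, add_right_inj] at e1 e2
  have hs : d * sympBilin F m z w ≠ 0 := fun h0 => ha (by rw [h0, zero_smul] at e1; exact neg_eq_zero.1 e1)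
  have hw : w = (d * sympBilin F m z w)⁻¹ • (-a) := by rw [e1, smul_smul, inv_mul_cancel₀ hs, one_smul]
  refine hb (Submodule.mem_span_singleton.2
    ⟨-(sympBilin F m x b) - d * sympBilin F m x w * (d * sympBilin F m z w)⁻¹, ?_⟩)
  have hd : (d * sympBilin F m x w) • w = (d * sympBilin F m x w * (d * sympBilin F m z w)⁻¹) • (-a) := by
    conv_lhs => arg 2; rw [hw]
    rw [smul_smul]
  rw [hd] at e2
  linear_combination (norm := module) -e2

/-- A short root element. -/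
def IsShort (y : Cfsg.PSp 2 F) : Prop :=
  ∃ a b : V2, a ≠ 0 ∧ sympBilin F 2 b a = 0 ∧ b ∉ Submodule.span F {a} ∧ y = QuotientGroup.mk (uQ a b)

/-- A transvection. -/
def IsTv (y : Cfsg.PSp 2 F) : Prop := ∃ (w : V2) (d : F), w ≠ 0 ∧ d ≠ 0 ∧ y = P w d

theorem exists_gamma (hq : 3 ≤ Fintype.card F) :
    ∃ γ : MulAut (Cfsg.PSp 2 F), γ (P (eB 0 : V2) 1) = QuotientGroup.mk (uQ (eB 0) (eB 1)) := by
  haveI := Cfsg.Agent.S0270.result (F := F) 2 le_rfl (fun _ => hq)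
  let ψ : Cfsg.PSp 2 F →* Cfsg.PSp 2 F := ((eC (F := F)).toMonoidHom.comp phi).comp (eC (F := F)).symm.toMonoidHom
  have hval : ∀ A, ψ (QuotientGroup.mk A) = QuotientGroup.mk (phi A) := fun A => by
    show eC (phi (eC.symm (eC A))) = _
    rw [MulEquiv.symm_apply_apply]
    rfl
  have h1 : ψ (P (eB 0 : V2) 1) = QuotientGroup.mk (uQ (eB 0) (eB 1)) := by rw [P, hval, phi_tS]
  have hinj : Function.Injective ψ := by
    rw [← MonoidHom.ker_eq_bot_iff]
    refine (ψ.normal_ker.eq_bot_or_eq_top).resolve_right fun htop => ?_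
    have h2 : ψ (P (eB 0 : V2) 1) = 1 := MonoidHom.mem_ker.1 (htop ▸ Subgroup.mem_top _)
    rw [h1, ← P_zero (eB 0 : V2)] at h2
    exact exotic_ne_P 2 le_rfl (by simp [omega_e, eB]) (by simp [eB]) (fun hh => by
      obtain ⟨r, hr⟩ := Submodule.mem_span_singleton.1 hh
      have := congrFun hr (Sum.inl 1)
      simp [eB] at this) 0 h2
  exact ⟨MulEquiv.ofBijective ψ (Finite.injective_iff_bijective.1 hinj), h1⟩

theorem short_conj {y y' : Cfsg.PSp 2 F} (h : IsShort y) (h' : IsShort y') : ∃ g, y' = g * y * g⁻¹ := by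
  obtain ⟨a, b, ha, hab, hb, rfl⟩ := h
  obtain ⟨a', b', ha', hab', hb', rfl⟩ := h'
  obtain ⟨g, hga, hgb⟩ := exists_move_pair ha hb (by rw [swap b a, hab, neg_zero]) ha' hb'
    (by rw [swap b' a', hab', neg_zero])
  refine ⟨QuotientGroup.mk g, ?_⟩
  rw [← QuotientGroup.mk_inv, ← QuotientGroup.mk_mul, ← QuotientGroup.mk_mul, conj_uQ, hga, hgb]

theorem tv_conj {y y' : Cfsg.PSp 2 F} (h : IsTv y) (h' : IsTv y') : ∃ g, y' = g * y * g⁻¹ := by
  haveI : Fact (Nat.Prime 2) := ⟨Nat.prime_two⟩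
  obtain ⟨w, d, hw, hd, rfl⟩ := h
  obtain ⟨w', d', hw', hd', rfl⟩ := h'
  obtain ⟨s, hs⟩ := (bijective_frobenius F 2).2 (d' / d)
  have hs' : s ^ 2 = d' / d := hs
  have hs0 : s ≠ 0 := fun e => by
    rw [e] at hs'; simp at hs'; exact div_ne_zero hd' hd hs'.symm
  obtain ⟨g, hg⟩ := exists_move hw (smul_ne_zero hs0 hw')
  refine ⟨QuotientGroup.mk g, ?_⟩
  rw [P, P, ← QuotientGroup.mk_inv, ← QuotientGroup.mk_mul, ← QuotientGroup.mk_mul, conj_tS, hg, tS_smul]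
  congr 2
  rw [← pow_two, hs', div_mul_cancel₀ _ hd]

theorem card_cls_c2 {e k : V2} (he : e ≠ 0) (hk : sympBilin F 2 k e = 0) (hke : k ∉ Submodule.span F {e}) {c : F}
    (hc0 : c ≠ 0) (hq : 2 ≤ Fintype.card F) :
    Fintype.card F ^ 4 - 1 < Nat.card (cls (QuotientGroup.mk (uQ e k * tS e c) : Cfsg.PSp 2 F)) := by
  let Y := Σ a : {a : V2 // a ≠ 0}, {b : V2 // sympBilin F 2 b a.1 = 0 ∧ b ∉ Submodule.span F {a.1}}
  let img : Y → cls (QuotientGroup.mk (uQ e k * tS e c) : Cfsg.PSp 2 F) := fun y =>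
    ⟨QuotientGroup.mk (uQ y.1.1 y.2.1 * tS y.1.1 c), by
      obtain ⟨g, hga, hgb⟩ := exists_move_pair he hke (by rw [swap k e, hk, neg_zero]) y.1.2 y.2.2.2
        (by rw [swap y.2.1 y.1.1, y.2.2.1, neg_zero])
      refine ⟨QuotientGroup.mk g, ?_⟩
      show QuotientGroup.mk g * QuotientGroup.mk _ * (QuotientGroup.mk g)⁻¹ = QuotientGroup.mk _
      rw [show uQ y.1.1 y.2.1 * tS y.1.1 c = uQ (g.1 *ᵥ e) (g.1 *ᵥ k) * tS (g.1 *ᵥ e) c by rw [hga, hgb],
        ← conj_uQ, ← conj_tS, ← QuotientGroup.mk_inv, ← QuotientGroup.mk_mul, ← QuotientGroup.mk_mul]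
      congr 1
      group⟩
  have hinj : ∀ y y' : Y, img y = img y' → y.1.1 = y'.1.1 ∧ ∃ r : F, y.2.1 = y'.2.1 + r • y'.1.1 := by
    intro y y' h
    have hM := mk_injective 2 one_le_two (congrArg Subtype.val h)
    have hx : ∀ x, (c * sympBilin F 2 x y.1.1 + sympBilin F 2 x y.2.1) • y.1.1 + sympBilin F 2 x y.1.1 • y.2.1 =
        (c * sympBilin F 2 x y'.1.1 + sympBilin F 2 x y'.2.1) • y'.1.1 + sympBilin F 2 x y'.1.1 • y'.2.1 := fun x => by
      have h2 := congrArg (fun A : Sp4 => A.1 *ᵥ x) hM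
      simp only [exotic_mulVec y.2.2.1, exotic_mulVec y'.2.2.1, add_assoc, add_right_inj] at h2
      exact h2
    have ha : y.1.1 = y'.1.1 := by
      refine sub_eq_zero.1 (eq_zero_of_forall fun x => ?_)
      have e := congrArg (fun u => sympBilin F 2 x u) (hx x)
      simp only [map_add, map_smul, smul_eq_mul] at e
      have h2 : (2 : F) = 0 := CharTwo.two_eq_zero
      have e' : c * ((sympBilin F 2 x y.1.1 - sympBilin F 2 x y'.1.1) * (sympBilin F 2 x y.1.1 - sympBilin F 2 x y'.1.1)) = 0 := by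
        linear_combination e + (sympBilin F 2 x y'.1.1 * sympBilin F 2 x y'.2.1 -
          sympBilin F 2 x y.1.1 * sympBilin F 2 x y.2.1 - c * sympBilin F 2 x y.1.1 * sympBilin F 2 x y'.1.1 +
          c * sympBilin F 2 x y'.1.1 * sympBilin F 2 x y'.1.1) * h2
      rw [map_sub]
      exact mul_self_eq_zero.1 ((mul_eq_zero.1 e').resolve_left hc0)
    refine ⟨ha, ?_⟩
    obtain ⟨x, hxa⟩ := exists_eq_one y.1.2
    have e2 := hx x
    have hxa' : sympBilin F 2 x y'.1.1 = 1 := by rw [← ha]; exact hxa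
    rw [hxa, hxa', one_smul, one_smul, mul_one] at e2
    refine ⟨sympBilin F 2 x y'.2.1 - sympBilin F 2 x y.2.1, ?_⟩
    linear_combination (norm := module) e2 - (c + sympBilin F 2 x y.2.1) • ha
  by_contra hle
  rw [not_lt] at hle
  have hcard : Nat.card Y ≤ Nat.card (cls (QuotientGroup.mk (uQ e k * tS e c) : Cfsg.PSp 2 F)) * Fintype.card F := by
    have hrep : ∀ z : cls (QuotientGroup.mk (uQ e k * tS e c) : Cfsg.PSp 2 F), ∃ o : Option Y,
        ∀ y, img y = z → ∃ y', o = some y' ∧ img y = img y' := fun z => by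
      by_cases h : ∃ y, img y = z
      · exact ⟨some h.choose, fun y hy => ⟨_, rfl, hy.trans h.choose_spec.symm⟩⟩
      · exact ⟨none, fun y hy => absurd ⟨y, hy⟩ h⟩
    choose rep hrep using hrep
    choose y' hy' himg using fun y => hrep (img y) y rfl
    choose ha r hr using fun y => hinj y (y' y) (himg y)
    have key := Nat.card_le_card_of_injective (fun y => (img y, r y)) (fun u v huv => by
      simp only [Prod.mk.injEq] at huv
      have e0 : y' u = y' v := Option.some_injective _ (by rw [← hy', ← hy', huv.1])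
      have h1 : u.1.1 = v.1.1 := by rw [ha u, ha v, e0]
      have h2 : u.2.1 = v.2.1 := by rw [hr u, hr v, e0, huv.2]
      obtain ⟨⟨a, _⟩, b, _⟩ := u
      obtain ⟨⟨a', _⟩, b', _⟩ := v
      simp only at h1 h2
      subst h1 h2
      rfl)
    rwa [Nat.card_prod, Nat.card_eq_fintype_card (α := F)] at key
  have hfib : ∀ a : {a : V2 // a ≠ 0}, Fintype.card F + 1 ≤
      Nat.card {b : V2 // sympBilin F 2 b a.1 = 0 ∧ b ∉ Submodule.span F {a.1}} := by
    intro a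
    have h1 := card_perp a.2
    rw [card_V] at h1
    have h2 : Nat.card {b : V2 // sympBilin F 2 b a.1 = 0} ≤
        Nat.card {b : V2 // sympBilin F 2 b a.1 = 0 ∧ b ∉ Submodule.span F {a.1}} + Nat.card F := by
      rw [← Nat.card_sum]
      refine Nat.card_le_card_of_surjective (Sum.elim (fun b => ⟨b.1, b.2.1⟩) fun r => ⟨r • a.1, by simp⟩) fun b => ?_
      by_cases hb : b.1 ∈ Submodule.span F {a.1}
      · obtain ⟨r, hr⟩ := Submodule.mem_span_singleton.1 hb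
        exact ⟨Sum.inr r, Subtype.ext hr⟩
      · exact ⟨Sum.inl ⟨b.1, b.2, hb⟩, rfl⟩
    rw [Nat.card_eq_fintype_card (α := F)] at h2
    set q := Fintype.card F
    set A := Nat.card {b : V2 // sympBilin F 2 b a.1 = 0 ∧ b ∉ Submodule.span F {a.1}}
    set B := Nat.card {b : V2 // sympBilin F 2 b a.1 = 0}
    have h4 : q ^ 3 = B := Nat.eq_of_mul_eq_mul_right (show 0 < q by omega) (by rw [h1]; ring)
    have h5 : 4 * q ≤ q ^ 3 := by rw [show q ^ 3 = q * q * q by ring]; exact Nat.mul_le_mul_right q (Nat.mul_le_mul hq hq)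
    omega
  have hY : Nat.card {a : V2 // a ≠ 0} * (Fintype.card F + 1) ≤ Nat.card Y := by
    rw [Nat.card_sigma, Nat.card_eq_fintype_card, Fintype.card, mul_comm]
    calc (Fintype.card F + 1) * (Finset.univ : Finset {a : V2 // a ≠ 0}).card
        = ∑ _a : {a : V2 // a ≠ 0}, (Fintype.card F + 1) := by simp [mul_comm]
      _ ≤ _ := Finset.sum_le_sum fun a _ => hfib a
  have hc : Nat.card {v : V2 // v ≠ 0} = Nat.card V2 - 1 := by
    rw [Nat.card_eq_fintype_card, Nat.card_eq_fintype_card, Fintype.card_subtype_compl, Fintype.card_subtype_eq]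
  rw [hc, card_V, show 2 * 2 = 4 from rfl] at hY
  have hN : 1 < Fintype.card F ^ 4 := Nat.one_lt_pow (by omega) (by omega)
  have := hY.trans (hcard.trans (Nat.mul_le_mul_right _ hle))
  rw [Nat.mul_add, mul_one] at this
  omega

theorem image_cases (hq : 2 ≤ Fintype.card F) (β : MulAut (Cfsg.PSp 2 F)) {y : Cfsg.PSp 2 F} (hy : IsTv y) :
    IsTv (β y) ∨ IsShort (β y) := by
  haveI : Fact (Nat.Prime 2) := ⟨Nat.prime_two⟩
  obtain ⟨v, d, hv, hd, rfl⟩ := hy
  obtain ⟨S, hS⟩ := exists_sylow 2 one_le_two hv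
  let T : Sylow 2 (Cfsg.PSp 2 F) := (S.isPGroup'.map β.toMonoidHom).toSylow (by
    rw [show β.toMonoidHom = (β : Cfsg.PSp 2 F →* Cfsg.PSp 2 F) from rfl, Subgroup.index_map_equiv]
    exact Sylow.not_dvd_index S)
  obtain ⟨h, hh⟩ := MulAction.exists_smul_eq (Cfsg.PSp 2 F) S T
  have hiff : ∀ y, y ∈ (T : Subgroup (Cfsg.PSp 2 F)) ↔ h⁻¹ * y * h ∈ (S : Subgroup (Cfsg.PSp 2 F)) := by
    intro y
    rw [← hh, Sylow.coe_subgroup_smul, Subgroup.mem_pointwise_smul_iff_inv_smul_mem]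
    simp [MulAut.conj_symm_apply, MulDistribMulAction.toMulAut]
  have hy0 := (hiff _).1 (show β (P v d) ∈ (T : Subgroup _) from ⟨_, (hS 1 (one_mem _)).2.1 d, rfl⟩)
  obtain ⟨z, hz, hzQ⟩ := (hS _ hy0).2.2 fun y' hy' => by
    obtain ⟨x, hx, hxe⟩ := (hiff (h * y' * h⁻¹)).2 (by
      rwa [show h⁻¹ * (h * y' * h⁻¹) * h = y' by group])
    have hxe' : β x = h * y' * h⁻¹ := hxe
    have hcm : Commute (β x) (β (P v d)) := ((hS x hx).1 d).map β.toMonoidHom
    rw [hxe'] at hcm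
    calc h⁻¹ * β (P v d) * h * y' = h⁻¹ * (β (P v d) * (h * y' * h⁻¹)) * h := by group
      _ = h⁻¹ * ((h * y' * h⁻¹) * β (P v d)) * h := by rw [hcm.eq]
      _ = _ := by group
  have hβ : β (P v d) = h * QuotientGroup.mk z * h⁻¹ := by rw [← hz]; group
  obtain ⟨g, rfl⟩ := QuotientGroup.mk_surjective h
  rcases central_cases 2 one_le_two hv hzQ with ⟨c, hc⟩ | ⟨-, k, c, hk, hke, hzk⟩
  · refine Or.inl ⟨g.1 *ᵥ v, c, mulVec_ne_zero g hv, fun hc0 => hd (P_injective le_rfl hv (β.injective ?_)), ?_⟩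
    · rw [hβ, hc, hc0, P_zero, map_one]; group
    · rw [hβ, hc, P, P, ← conj_tS]; rfl
  · by_cases hc0 : c = 0
    · refine Or.inr ⟨g.1 *ᵥ v, g.1 *ᵥ k, mulVec_ne_zero g hv, by rw [iso, hk], fun hh => hke ?_, ?_⟩
      · obtain ⟨r, hr⟩ := Submodule.mem_span_singleton.1 hh
        refine Submodule.mem_span_singleton.2 ⟨r, ?_⟩
        have := congrArg (fun u => (g⁻¹ : Sp4).1 *ᵥ u) hr
        simp only [mulVec_smul, inv_mulVec] at this
        exact this
      · rw [hβ, hzk, hc0, tS_zero, mul_one, ← conj_uQ]; rfl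
    · exfalso
      have h1 := card_cls_c2 hv hk hke hc0 hq
      rw [← hzk, ← hz] at h1
      rw [show (QuotientGroup.mk g)⁻¹ * β (P v d) * QuotientGroup.mk g =
        (QuotientGroup.mk g)⁻¹ * β (P v d) * ((QuotientGroup.mk g)⁻¹)⁻¹ by rw [inv_inv], cls_conj, card_cls_map] at h1
      have h2 := card_cls_P hv d
      rw [show 2 * 2 = 4 from rfl] at h2
      exact absurd h2 (not_le.2 h1)

theorem image_of_tv {β : MulAut (Cfsg.PSp 2 F)} (hβ : ∀ y, IsTv y → IsTv (β y)) {x : V2} (hx : x ≠ 0) :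
    ∃ (w : V2) (ψ : F → F), w ≠ 0 ∧ ∀ c, β (P x c) = P w (ψ c) := by
  obtain ⟨w, d, hw, hd, h1⟩ := hβ _ ⟨x, 1, hx, one_ne_zero, rfl⟩
  suffices h : ∀ c, ∃ d', β (P x c) = P w d' by
    choose ψ hψ using h
    exact ⟨w, ψ, hw, hψ⟩
  intro c
  by_cases hc : c = 0
  · exact ⟨0, by rw [hc, P_zero, P_zero, map_one]⟩
  obtain ⟨w', d1, hw', hd1, h2⟩ := hβ _ ⟨x, c, hx, hc, rfl⟩
  by_cases hc1 : c = 1
  · exact ⟨d, by rw [hc1, h1]⟩
  have hne : c + 1 ≠ 0 := fun e => hc1 (CharTwo.add_eq_zero.1 e)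
  obtain ⟨w'', d2, hw'', hd2, h3⟩ := hβ _ ⟨x, c + 1, hx, hne, rfl⟩
  rw [← P_add, map_mul, h1, h2] at h3
  have hcom : Commute (P w' d1) (P w d) := by
    rw [← h1, ← h2]
    have h0 : Commute (P x c) (P x 1) := by show _ = _; rw [P_add, P_add, add_comm]
    exact h0.map β.toMonoidHom
  have horth := (commute_iff le_rfl hd1 hd hw').1 hcom
  suffices hs : w' ∈ Submodule.span F {w} by
    obtain ⟨r, hr⟩ := Submodule.mem_span_singleton.1 hs
    exact ⟨r * r * d1, by rw [h2, ← hr, P_smul]⟩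
  by_contra hs
  have e := mk_injective 2 one_le_two (show (QuotientGroup.mk (tS w' d1 * tS w d) : Cfsg.PSp 2 F) =
    QuotientGroup.mk (tS w'' d2) by rw [QuotientGroup.mk_mul]; exact h3)
  obtain ⟨z, hz1, hz2⟩ := Cfsg.Lib.Classical.exists_sep (sympBilin F 2) (sympBilin_isAlt F 2)
    (Cfsg.Lib.Classical.sympBilin_nondegenerate F 2) hs
  have hs' : w ∉ Submodule.span F {w'} := fun h => by
    obtain ⟨r, hr⟩ := Submodule.mem_span_singleton.1 h
    have hr0 : r ≠ 0 := fun e0 => hw (by rw [← hr, e0, zero_smul])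
    exact hs (Submodule.mem_span_singleton.2 ⟨r⁻¹, by rw [← hr, smul_smul, inv_mul_cancel₀ hr0, one_smul]⟩)
  obtain ⟨z', hz1', hz2'⟩ := Cfsg.Lib.Classical.exists_sep (sympBilin F 2) (sympBilin_isAlt F 2)
    (Cfsg.Lib.Classical.sympBilin_nondegenerate F 2) hs'
  have happ : ∀ u, (d1 * sympBilin F 2 u w') • w' + (d * sympBilin F 2 u w) • w =
      (d2 * sympBilin F 2 u w'') • w'' := fun u => by
    have e' := congrArg (fun A : Sp4 => A.1 *ᵥ u) e
    simp only [mul_mulVec, tS_mulVec, map_add, map_smul, LinearMap.add_apply, LinearMap.smul_apply, swap w' w,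
      horth, neg_zero, smul_zero, add_zero] at e'
    linear_combination (norm := module) e'
  have ea := happ z
  have eb := happ z'
  rw [swap w z, swap w' z, hz1, hz2, neg_zero, mul_zero, zero_smul, add_zero] at ea
  rw [swap w z', swap w' z', hz1', hz2', neg_zero, mul_zero, zero_smul, zero_add] at eb
  have hd2z : d * -1 ≠ 0 := by simpa using hd
  have hs2 : d2 * sympBilin F 2 z' w'' ≠ 0 := fun h0 => smul_ne_zero hd2z hw (by rw [eb, h0, zero_smul])
  refine hs (Submodule.mem_span_singleton.2 ⟨(d1 * -1)⁻¹ * (d2 * sympBilin F 2 z w'') *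
    ((d2 * sympBilin F 2 z' w'')⁻¹ * (d * -1)), ?_⟩)
  rw [mul_smul, mul_smul ((d2 * sympBilin F 2 z' w'')⁻¹), eb, smul_smul _ (d2 * sympBilin F 2 z' w'') w'',
    inv_mul_cancel₀ hs2, one_smul, mul_smul, ← ea, smul_smul, inv_mul_cancel₀ (by simpa using hd1), one_smul]

/-- **Automorphisms of `PSp_4(2^f)`.** -/
theorem exists_exceptional (hq : 3 ≤ Fintype.card F) :
    ∃ γ : MulAut (Cfsg.PSp 2 F), (∀ (g : Cfsg.GSp 2 F) (σ : F ≃+* F), γ ≠ conjP g * frobP σ) ∧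
      ∀ β : MulAut (Cfsg.PSp 2 F), ∃ (g : Cfsg.GSp 2 F) (σ : F ≃+* F),
        β = conjP g * frobP σ ∨ β = γ * (conjP g * frobP σ) := by
  obtain ⟨γ, hγ⟩ := exists_gamma hq
  have htv0 : IsTv (P (eB 0 : V2) (1 : F)) := ⟨_, 1, by simp [eB], one_ne_zero, rfl⟩
  have hsh : IsShort (γ (P (eB 0 : V2) 1)) := ⟨eB 0, eB 1, by simp [eB], by simp [omega_e, eB], fun h => by
    obtain ⟨r, hr⟩ := Submodule.mem_span_singleton.1 h
    have := congrFun hr (Sum.inl 1)
    simp [eB] at this, hγ⟩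
  have htvconj : ∀ {y : Cfsg.PSp 2 F}, IsTv y → ∀ g, IsTv (g * y * g⁻¹) := by
    rintro _ ⟨w, d, hw, hd, rfl⟩ g
    obtain ⟨g, rfl⟩ := QuotientGroup.mk_surjective g
    exact ⟨g.1 *ᵥ w, d, mulVec_ne_zero g hw, hd, by rw [P, P, ← conj_tS]; rfl⟩
  have hsep : ∀ {y : Cfsg.PSp 2 F}, IsShort y → ¬ IsTv y := by
    rintro _ ⟨a, b, ha, hab, hb, rfl⟩ ⟨w, d, -, -, h⟩
    exact exotic_ne_P 2 le_rfl hab ha hb d h
  have hpres : ∀ (g : Cfsg.GSp 2 F) (σ : F ≃+* F), γ ≠ conjP g * frobP σ := by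
    intro g σ e
    refine hsep hsh ?_
    rw [e, MulAut.mul_apply, frobP_P, conjP_P g (mult two_pos g).ne_zero (mult_spec two_pos g)]
    exact ⟨_, _, Cfsg.Lib.Classical.mulVec_ne_zero g.1 (fun h => by
      have := congrFun h (Sum.inl 0); simp [eB] at this), by simp, rfl⟩
  refine ⟨γ, hpres, fun β => ?_⟩
  rcases image_cases (by omega) β htv0 with hb | hb
  · obtain ⟨g, σ, rfl⟩ := exists_decomp_of_image le_rfl β fun x hx => image_of_tv (fun y hy => by
      obtain ⟨k, rfl⟩ := tv_conj htv0 hy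
      rw [map_mul, map_mul, map_inv]
      exact htvconj hb _) hx
    exact ⟨g, σ, Or.inl rfl⟩
  · obtain ⟨g, σ, hg⟩ := exists_decomp_of_image le_rfl (γ⁻¹ * β) fun x hx => image_of_tv (fun y hy => by
      obtain ⟨k, rfl⟩ := tv_conj htv0 hy
      obtain ⟨k', hk'⟩ := short_conj hsh hb
      rw [map_mul, map_mul, map_inv]
      simp only [MulAut.mul_apply]
      rw [hk', map_mul, map_mul, map_inv]
      rw [show (γ⁻¹ : MulAut (Cfsg.PSp 2 F)) (γ (P (eB 0 : V2) 1)) = P (eB 0 : V2) 1 from γ.symm_apply_apply _]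
      exact htvconj (htvconj htv0 _) _) hx
    exact ⟨g, σ, Or.inr (by rw [← hg, mul_inv_cancel_left])⟩

/-! ### The order of the automorphism group -/

variable {F' : Type*} [Field F'] {m : ℕ}

theorem conj_injective (hm : 2 ≤ m) :
    Function.Injective (MulAut.conj : Cfsg.PSp m F' →* MulAut (Cfsg.PSp m F')) := by
  rw [← MonoidHom.ker_eq_bot_iff, eq_bot_iff]
  intro k hk
  obtain ⟨A, rfl⟩ := QuotientGroup.mk_surjective k
  rw [MonoidHom.mem_ker, conj_mk, conjP_eq_one_iff hm] at hk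
  obtain ⟨r, hr⟩ := hk
  rw [Subgroup.mem_bot, QuotientGroup.eq_one_iff]
  refine scalar_mem_center (r := (r : F')) ?_
  rw [← coe_sc, ← hr]
  exact (Cfsg.Lib.Classical.coe_spToGL A).symm

variable [Fintype F']

theorem card_pairs (hm : 2 ≤ m) : Nat.card (↥(inndiagPSp m F') × (F' ≃+* F')) =
    Nat.gcd 2 (Fintype.card F' - 1) * Nat.card (F' ≃+* F') * Nat.card (Cfsg.PSp m F') := by
  have h0 : 0 < m := by omega
  have hI : Nat.card (Cfsg.Inn (Cfsg.PSp m F')) = Nat.card (Cfsg.PSp m F') :=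
    (Nat.card_congr (MonoidHom.ofInjective (conj_injective hm)).toEquiv).symm
  set Q : Subgroup F'ˣ := (powMonoidHom 2 : F'ˣ →* F'ˣ).range
  have hK : (Cfsg.Inn (Cfsg.PSp m F')).comap (conjP (m := m)) =
      ((QuotientGroup.mk' Q).comp (mult h0)).ker := by
    ext g
    rw [Subgroup.mem_comap, conjP_mem_Inn_iff hm, MonoidHom.mem_ker, MonoidHom.comp_apply, QuotientGroup.mk'_apply,
      QuotientGroup.eq_one_iff]
    exact ⟨fun ⟨u, hu⟩ => ⟨u, by rw [hu, powMonoidHom_apply, pow_two]⟩,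
      fun ⟨u, hu⟩ => ⟨u, by rw [← hu, powMonoidHom_apply, pow_two]⟩⟩
  have hsurj : Function.Surjective ((QuotientGroup.mk' Q).comp (mult (F := F') h0)) := by
    intro q
    obtain ⟨w, rfl⟩ := QuotientGroup.mk_surjective q
    let Dv : Fin m ⊕ Fin m → F' := Sum.elim (fun _ => (w : F')) fun _ => 1
    have hd : ∀ x y, sympBilin F' m (Matrix.diagonal Dv *ᵥ x) (Matrix.diagonal Dv *ᵥ y) =
        (w : F') * sympBilin F' m x y := by
      intro x y
      rw [sympBilin_apply, sympBilin_apply, sympForm_eq_sum, sympForm_eq_sum, Finset.mul_sum]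
      refine Finset.sum_congr rfl fun i _ => ?_
      simp only [mulVec_diagonal, Dv, Sum.elim_inl, Sum.elim_inr]
      ring
    refine ⟨⟨Matrix.GeneralLinearGroup.mkOfDetNeZero (Matrix.diagonal Dv) ?_, mem_GSp_iff.2 ⟨w, hd⟩⟩, ?_⟩
    · rw [det_diagonal]
      refine Finset.prod_ne_zero_iff.2 fun i _ => ?_
      rcases i with i | i <;> simp [Dv]
    · rw [MonoidHom.comp_apply, QuotientGroup.mk'_apply]
      exact congrArg _ (Units.ext (mult_eq h0 _ hd))
  have hidx : (Cfsg.Inn (Cfsg.PSp m F')).relIndex (conjP (m := m)).range = Nat.gcd 2 (Fintype.card F' - 1) := by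
    rw [← Subgroup.index_comap, hK, Subgroup.index_ker, MonoidHom.range_eq_top.2 hsurj, Subgroup.card_top,
      ← Subgroup.index_eq_card, IsCyclic.index_powMonoidHom_range, Nat.card_units, Nat.card_eq_fintype_card,
      Nat.gcd_comm]
  have hcard : Nat.card (inndiagPSp m F') = Nat.gcd 2 (Fintype.card F' - 1) * Nat.card (Cfsg.PSp m F') := by
    rw [inndiag_eq, ← hidx, ← hI, mul_comm, ← Subgroup.relIndex_bot_left, ← Subgroup.relIndex_bot_left,
      Subgroup.relIndex_mul_relIndex _ _ _ bot_le (inn_le hm)]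
  rw [Nat.card_prod, hcard]
  ring

/-- The product map on inner-diagonal and field automorphisms. -/
noncomputable def pairMap (p : ↥(inndiagPSp m F') × (F' ≃+* F')) : MulAut (Cfsg.PSp m F') := p.1.1 * frobP p.2

omit [Fintype F'] in
theorem pairMap_injective (hm : 2 ≤ m) : Function.Injective (pairMap (m := m) (F' := F')) := by
  rintro ⟨⟨a, ha⟩, σ⟩ ⟨⟨b, hb⟩, τ⟩ h
  change a * frobP σ = b * frobP τ at h
  rw [inndiag_eq] at ha hb
  obtain ⟨g, rfl⟩ := ha
  obtain ⟨g', rfl⟩ := hb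
  have h2 : conjP (g'⁻¹ * g) * frobP (σ * τ⁻¹) = (1 : MulAut (Cfsg.PSp m F')) := by
    rw [map_mul, map_inv, ← frobP_mul]
    calc (conjP g')⁻¹ * conjP g * (frobP σ * frobP τ⁻¹) = (conjP g')⁻¹ * (conjP g * frobP σ) * frobP τ⁻¹ := by group
      _ = frobP τ * frobP τ⁻¹ := by rw [h]; group
      _ = 1 := by rw [frobP_mul, mul_inv_cancel, frobP_one]
  have hστ : σ = τ := eq_of_mul_inv_eq_one (scalar_of_eq_one hm h2).1
  subst hστ
  exact Prod.ext (Subtype.ext (mul_right_cancel h)) rfl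

theorem pairMap_range (g : Cfsg.GSp m F') (σ : F' ≃+* F') :
    conjP g * frobP σ ∈ Set.range (pairMap (m := m) (F' := F')) :=
  ⟨(⟨conjP g, by rw [inndiag_eq]; exact ⟨g, rfl⟩⟩, σ), rfl⟩

/-- **The order of `Aut(PSp_{2m}(F))`.** -/
theorem card_mulAut {p f : ℕ} [Fact p.Prime] (hF : Fintype.card F' = p ^ f) (hcardAut : Nat.card (F' ≃+* F') = f)
    (hm : 2 ≤ m) (h22 : m = 2 → 3 ≤ p ^ f) :
    Nat.card (MulAut (Cfsg.PSp m F')) =
      (if m = 2 ∧ p = 2 then 2 else 1) * Nat.gcd 2 (p ^ f - 1) * f * Nat.card (Cfsg.PSp m F') := by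
  have hp : CharP F' p := by
    obtain ⟨q, hq⟩ := CharP.exists F'
    haveI := hq
    have hqp : q.Prime := CharP.char_is_prime F' q
    haveI : Fact q.Prime := ⟨hqp⟩
    obtain ⟨k, -, hk⟩ := FiniteField.card F' q
    have : q ∣ p ^ f := hF ▸ hk ▸ dvd_pow_self q k.ne_zero
    rwa [← (Nat.prime_dvd_prime_iff_eq hqp Fact.out).1 (hqp.dvd_of_dvd_pow this)]
  haveI : Finite (MulAut (Cfsg.PSp m F')) :=
    Finite.of_injective (fun e => (e : Cfsg.PSp m F' → Cfsg.PSp m F')) DFunLike.coe_injective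
  have hbase := card_pairs (F' := F') hm
  rw [hF, hcardAut] at hbase
  split_ifs with h
  · obtain ⟨rfl, rfl⟩ := h
    obtain ⟨γ, hne, hall⟩ := exists_exceptional (F := F') (hF ▸ h22 rfl)
    have hmem : ∀ x : ↥(inndiagPSp 2 F') × (F' ≃+* F'), ∃ g σ, pairMap x = conjP g * frobP σ := by
      rintro ⟨⟨a, ha⟩, σ⟩
      rw [inndiag_eq] at ha
      obtain ⟨g, rfl⟩ := ha
      exact ⟨g, σ, rfl⟩
    have hbij : Function.Bijective (Sum.elim (pairMap (m := 2) (F' := F')) fun x => γ * pairMap x) := by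
      refine ⟨(pairMap_injective hm).sumElim ((mul_right_injective γ).comp (pairMap_injective hm))
        fun a b e => ?_, fun β => ?_⟩
      · obtain ⟨g, σ, ha⟩ := hmem a
        obtain ⟨g', σ', hb⟩ := hmem b
        rw [ha, hb, ← mul_inv_eq_iff_eq_mul] at e
        refine hne (g * mapG (σ * σ'⁻¹) g'⁻¹) (σ * σ'⁻¹) (e.symm.trans ?_)
        rw [_root_.mul_inv_rev, map_mul, ← frobP_mul, show (frobP σ' : MulAut (Cfsg.PSp 2 F'))⁻¹ = frobP σ'⁻¹ from
          inv_eq_of_mul_eq_one_right (by rw [frobP_mul, mul_inv_cancel, frobP_one]), frobP_mul, ← map_inv]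
        calc conjP g * frobP σ * (frobP σ'⁻¹ * conjP g'⁻¹) = conjP g * ((frobP σ * frobP σ'⁻¹) * conjP g'⁻¹) := by group
          _ = conjP g * (frobP (σ * σ'⁻¹) * conjP g'⁻¹) := by rw [frobP_mul]
          _ = _ := by rw [frobP_conjP]; group
      · obtain ⟨g, σ, rfl | rfl⟩ := hall β
        · obtain ⟨x, hx⟩ := pairMap_range g σ
          exact ⟨Sum.inl x, hx⟩
        · obtain ⟨x, hx⟩ := pairMap_range g σ
          exact ⟨Sum.inr x, by rw [← hx]; rfl⟩
    rw [← Nat.card_congr (Equiv.ofBijective _ hbij), Nat.card_sum, hbase]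
    ring
  · have hbij : Function.Bijective (pairMap (m := m) (F' := F')) := by
      refine ⟨pairMap_injective hm, fun β => ?_⟩
      obtain ⟨g, σ, rfl⟩ := exists_decomp (p := p) hm (fun hp2 => by
        rcases Nat.lt_or_ge 2 m with hm3 | hm3
        · exact hm3
        · exact absurd ⟨le_antisymm hm3 hm, hp2⟩ h) β
      exact pairMap_range g σ
    rw [← Nat.card_congr (Equiv.ofBijective _ hbij), hbase]
    ring

end Cfsg.Lib.Classical.PSpAut
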